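import Mathlib
import Cfsg.Agent.Lib.Basic.PCore
import Cfsg.Agent.Lib.Basic.ProductCard
import Cfsg.Agent.Lib.Solvable.Carter
import Cfsg.Agent.Lib.Solvable.Product
import Cfsg.Agent.Lib.Nilpotent.Elements
import Cfsg.Agent.Lib.Components.Fitting
import Cfsg.Agent.Lib.Transfer.Frobenius
import Cfsg.Agent.Lib.Transfer.Basic

set_option autoImplicit false

/-!
# Tools for the Kegel-Wielandt theorem

`pPart`/`ppPart` of a nilpotent subgroup, conjugation in subgroups, Wielandt's conjugacy theorem for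
nilpotent Hall subgroups, and subgroup forms of Fitting's and Frobenius's theorems.
-/

namespace Cfsg.Agent.Lib.KW

open Subgroup Cfsg.Agent.Lib.Solvable.Carter

universe u

variable {G : Type*} [Group G]

/-- The normalizer of a subgroup. -/
abbrev Nz (H : Subgroup G) : Subgroup G := Subgroup.normalizer (H : Set G)

theorem conj_mem_nz {H : Subgroup G} {g x : G} (hg : g ∈ Nz H) (hx : x ∈ H) : g * x * g⁻¹ ∈ H :=
  (Subgroup.mem_normalizer_iff.mp hg x).mp hx

theorem inv_conj_mem_nz {H : Subgroup G} {g x : G} (hg : g ∈ Nz H) (hx : x ∈ H) :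
    g⁻¹ * x * g ∈ H := by
  have := conj_mem_nz (Subgroup.inv_mem _ hg) hx
  simpa using this

theorem mem_nz_of_conj [Finite G] {H : Subgroup G} {g : G} (h : ∀ x ∈ H, g * x * g⁻¹ ∈ H) :
    g ∈ Nz H :=
  mem_normalizer_of_forall_conj_mem h

/-- Conjugate of a subgroup. -/
abbrev cj (g : G) (H : Subgroup G) : Subgroup G := H.map (MulAut.conj g).toMonoidHom

theorem mem_cj {g x : G} {H : Subgroup G} : x ∈ cj g H ↔ g⁻¹ * x * g ∈ H := by
  constructor
  · rintro ⟨h, hh, rfl⟩
    have : g⁻¹ * ((MulAut.conj g).toMonoidHom h) * g = h := by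
      simp [MulAut.conj_apply]; group
    rwa [this]
  · intro h
    refine ⟨_, h, ?_⟩
    simp [MulAut.conj_apply]; group

theorem conj_mem_cj {g x : G} {H : Subgroup G} (hx : x ∈ H) : g * x * g⁻¹ ∈ cj g H := by
  rw [mem_cj]
  have e : g⁻¹ * (g * x * g⁻¹) * g = x := by group
  rwa [e]

theorem card_cj (g : G) (H : Subgroup G) : Nat.card (cj g H) = Nat.card H :=
  Nat.card_congr (Subgroup.equivMapOfInjective H _ (MulAut.conj g).injective).symm.toEquiv

theorem isPGroup_cj {p : ℕ} {g : G} {H : Subgroup G} (hH : IsPGroup p H) : IsPGroup p (cj g H) :=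
  hH.map _

theorem cj_eq_bot {g : G} {H : Subgroup G} (h : cj g H = ⊥) : H = ⊥ :=
  (Subgroup.map_eq_bot_iff_of_injective _ (MulAut.conj g).injective).mp h

theorem cj_eq_self_of_mem_nz [Finite G] {g : G} {H : Subgroup G} (hg : g ∈ Nz H) : cj g H = H := by
  ext x
  rw [mem_cj]
  constructor
  · intro h
    have := conj_mem_nz hg h
    have e : g * (g⁻¹ * x * g) * g⁻¹ = x := by group
    rwa [e] at this
  · intro h
    exact inv_conj_mem_nz hg h

/-- Split an element according to a coprime factorization of an exponent. -/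
theorem exists_split {x : G} {a b : ℕ} (hab : a.Coprime b) (hx : x ^ (a * b) = 1) :
    ∃ u v : G, u ∈ Subgroup.zpowers x ∧ v ∈ Subgroup.zpowers x ∧ x = u * v ∧ u ^ a = 1 ∧ v ^ b = 1 := by
  have hg := Nat.gcd_eq_gcd_ab a b
  rw [hab.gcd_eq_one] at hg
  have hx' : x ^ ((a : ℤ) * (b : ℤ)) = 1 := by
    have : ((a : ℤ) * (b : ℤ)) = ((a * b : ℕ) : ℤ) := by push_cast; ring
    rw [this, zpow_natCast, hx]
  refine ⟨x ^ ((b : ℤ) * Nat.gcdB a b), x ^ ((a : ℤ) * Nat.gcdA a b), ⟨_, rfl⟩, ⟨_, rfl⟩, ?_, ?_, ?_⟩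
  · rw [← zpow_add]
    have : (b : ℤ) * Nat.gcdB a b + (a : ℤ) * Nat.gcdA a b = 1 := by
      have h1 : ((1 : ℕ) : ℤ) = 1 := rfl
      rw [h1] at hg
      linarith
    rw [this, zpow_one]
  · rw [← zpow_natCast, ← zpow_mul]
    have : (b : ℤ) * Nat.gcdB a b * (a : ℤ) = (a : ℤ) * b * Nat.gcdB a b := by ring
    rw [this, zpow_mul, hx', one_zpow]
  · rw [← zpow_natCast, ← zpow_mul]
    have : (a : ℤ) * Nat.gcdA a b * (b : ℤ) = (a : ℤ) * b * Nat.gcdA a b := by ring
    rw [this, zpow_mul, hx', one_zpow]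

/-- Any nontrivial element has a power of prime order; it also lies in all subgroups containing
the element. -/
theorem exists_prime_order_pow [Finite G] {x : G} (hx : x ≠ 1) :
    ∃ (t : ℕ) (k : ℕ), t.Prime ∧ t ∣ orderOf x ∧ x ^ k ≠ 1 ∧ orderOf (x ^ k) = t := by
  have h1 : orderOf x ≠ 1 := by rwa [Ne, orderOf_eq_one_iff]
  obtain ⟨t, ht, hd⟩ := Nat.exists_prime_and_dvd h1
  refine ⟨t, orderOf x / t, ht, hd, ?_, ?_⟩
  · intro h
    have := orderOf_dvd_of_pow_eq_one h
    have h2 := Nat.le_of_dvd (Nat.div_pos (Nat.le_of_dvd (orderOf_pos x) hd) ht.pos) this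
    have h3 := Nat.div_lt_self (orderOf_pos x) ht.one_lt
    omega
  · rw [orderOf_pow_orderOf_div (orderOf_pos x).ne' hd]

section nil

variable [Finite G]

theorem commute_of_coprime {C : Subgroup G} (hC : Group.IsNilpotent C) {x y : G} (hx : x ∈ C)
    (hy : y ∈ C) (h : (orderOf x).Coprime (orderOf y)) : Commute x y := by
  haveI := hC
  have h' : (orderOf (⟨x, hx⟩ : C)).Coprime (orderOf (⟨y, hy⟩ : C)) := by
    rw [Subgroup.orderOf_mk, Subgroup.orderOf_mk]; exact h
  have := Cfsg.Agent.Lib.Nilpotent.Elements.commute_of_coprime_orderOf h'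
  have h2 := congrArg Subtype.val this.eq
  exact h2

/-- The `p`-part of a subgroup, as a subgroup of the ambient group. -/
noncomputable def pPart (p : ℕ) (C : Subgroup G) : Subgroup G :=
  (Cfsg.pCore p C).map C.subtype

theorem pPart_le (p : ℕ) (C : Subgroup G) : pPart p C ≤ C := by
  rintro _ ⟨y, -, rfl⟩
  exact y.2

variable {p : ℕ} [hp : Fact p.Prime]

theorem isPGroup_pPart (C : Subgroup G) : IsPGroup p (pPart p C) :=
  (Cfsg.Agent.Lib.Basic.PCore.pCore_isPGroup p).map _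

theorem mem_pPart_of_order {C : Subgroup G} (hC : Group.IsNilpotent C) {x : G} (hx : x ∈ C) {k : ℕ}
    (h : orderOf x = p ^ k) : x ∈ pPart p C := by
  refine ⟨⟨x, hx⟩, ?_, rfl⟩
  refine Cfsg.Agent.Lib.Basic.PCore.mem_pCore_of_normal_nilpotent (N := ⊤) inferInstance ?_
    (Subgroup.mem_top _) hp.out (k := k) ?_
  · haveI := hC
    exact Group.nilpotent_of_mulEquiv Subgroup.topEquiv.symm
  · rw [Subgroup.orderOf_mk]; exact h

theorem order_of_isPGroup {R : Subgroup G} (hR : IsPGroup p R) {x : G} (hx : x ∈ R) :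
    ∃ k, orderOf x = p ^ k := by
  obtain ⟨k, hk⟩ := hR ⟨x, hx⟩
  have : x ^ p ^ k = 1 := by
    have := congrArg Subtype.val hk
    simpa using this
  obtain ⟨j, -, hj⟩ := (Nat.dvd_prime_pow hp.out).1 (orderOf_dvd_of_pow_eq_one this)
  exact ⟨j, hj⟩

theorem le_pPart {C R : Subgroup G} (hC : Group.IsNilpotent C) (hRC : R ≤ C) (hR : IsPGroup p R) :
    R ≤ pPart p C := by
  intro x hx
  obtain ⟨k, hk⟩ := order_of_isPGroup hR hx
  exact mem_pPart_of_order hC (hRC hx) hk

theorem mem_ppPart_of {C : Subgroup G} (hC : Group.IsNilpotent C) {x : G} (hx : x ∈ C)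
    (h : (orderOf x).Coprime p) : x ∈ ppPart p C :=
  (mem_ppPart_iff hC).2 ⟨hx, h⟩

theorem order_coprime_of_mem_ppPart {C : Subgroup G} (hC : Group.IsNilpotent C) {x : G}
    (hx : x ∈ ppPart p C) : (orderOf x).Coprime p :=
  ((mem_ppPart_iff hC).1 hx).2

theorem commute_pPart_ppPart {C : Subgroup G} (hC : Group.IsNilpotent C) {x y : G}
    (hx : x ∈ pPart p C) (hy : y ∈ ppPart p C) : Commute x y := by
  refine commute_of_coprime hC (pPart_le p C hx) (ppPart_le p C hy) ?_
  obtain ⟨k, hk⟩ := order_of_isPGroup (isPGroup_pPart C) hx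
  rw [hk]
  exact Nat.Coprime.pow_left _ (order_coprime_of_mem_ppPart hC hy).symm

theorem commute_pPart_pPart {C : Subgroup G} (hC : Group.IsNilpotent C) {q : ℕ} [Fact q.Prime]
    (hpq : p ≠ q) {x y : G} (hx : x ∈ pPart p C) (hy : y ∈ pPart q C) : Commute x y := by
  refine commute_of_coprime hC (pPart_le p C hx) (pPart_le q C hy) ?_
  obtain ⟨k, hk⟩ := order_of_isPGroup (isPGroup_pPart C) hx
  obtain ⟨j, hj⟩ := order_of_isPGroup (isPGroup_pPart C) hy
  rw [hk, hj]
  exact Nat.Coprime.pow _ _ ((Nat.coprime_primes (Fact.out) (Fact.out)).2 hpq)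

/-- Decomposition into `p`-part and `p'`-part. -/
theorem exists_parts {C : Subgroup G} (hC : Group.IsNilpotent C) {x : G} (hx : x ∈ C) :
    ∃ u ∈ pPart p C, ∃ v ∈ ppPart p C, x = u * v := by
  have hn : orderOf x ≠ 0 := (orderOf_pos x).ne'
  have hfac := Nat.ordProj_mul_ordCompl_eq_self (orderOf x) p
  have hcop : (p ^ (orderOf x).factorization p).Coprime (orderOf x / p ^ (orderOf x).factorization p) :=
    Nat.Coprime.pow_left _ ((Nat.Prime.coprime_iff_not_dvd hp.out).2
      (Nat.not_dvd_ordCompl hp.out hn))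
  obtain ⟨u, v, hu, hv, e, h1, h2⟩ := exists_split (x := x) hcop (by rw [hfac, pow_orderOf_eq_one])
  have hz : Subgroup.zpowers x ≤ C := by simpa using hx
  obtain ⟨j, -, hj⟩ := (Nat.dvd_prime_pow hp.out).1 (orderOf_dvd_of_pow_eq_one h1)
  refine ⟨u, mem_pPart_of_order hC (hz hu) hj, v, mem_ppPart_of hC (hz hv) ?_, e⟩
  exact Nat.Coprime.coprime_dvd_left (orderOf_dvd_of_pow_eq_one h2)
    ((Nat.Prime.coprime_iff_not_dvd hp.out).2 (Nat.not_dvd_ordCompl hp.out hn)).symm

theorem nz_le_nz_pPart {C : Subgroup G} (hC : Group.IsNilpotent C) : Nz C ≤ Nz (pPart p C) := by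
  intro g hg
  apply mem_nz_of_conj
  intro x hx
  obtain ⟨k, hk⟩ := order_of_isPGroup (isPGroup_pPart C) hx
  refine mem_pPart_of_order hC (conj_mem_nz hg (pPart_le p C hx)) (k := k) ?_
  rw [orderOf_conj_eq, hk]

theorem nz_le_nz_ppPart {C : Subgroup G} (hC : Group.IsNilpotent C) : Nz C ≤ Nz (ppPart p C) := by
  intro g hg
  apply mem_nz_of_conj
  intro x hx
  refine mem_ppPart_of hC (conj_mem_nz hg (ppPart_le p C hx)) ?_
  rw [orderOf_conj_eq]
  exact order_coprime_of_mem_ppPart hC hx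

theorem le_nz_pPart {C : Subgroup G} (hC : Group.IsNilpotent C) : C ≤ Nz (pPart p C) :=
  (Subgroup.le_normalizer).trans (nz_le_nz_pPart hC)

theorem le_nz_ppPart {C : Subgroup G} (hC : Group.IsNilpotent C) : C ≤ Nz (ppPart p C) :=
  (Subgroup.le_normalizer).trans (nz_le_nz_ppPart hC)

/-- `pPart p C` is a Sylow subgroup of `C`: index prime to `p`. -/
theorem not_dvd_relIndex_pPart {C : Subgroup G} (hC : Group.IsNilpotent C) :
    ¬ p ∣ (pPart p C).relIndex C := by
  haveI := hC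
  let Q : Sylow p C := default
  have hQN : (Q : Subgroup C).Normal :=
    (Group.isNilpotent_of_finite_tfae (G := C)).out 0 3 rfl rfl |>.mp hC p ‹_› Q
  have hle : (Q : Subgroup C) ≤ Cfsg.pCore p C :=
    Cfsg.Agent.Lib.Basic.PCore.le_pCore hQN Q.2
  have h1 : (pPart p C).subgroupOf C = Cfsg.pCore p C := by
    ext x
    constructor
    · intro hx
      obtain ⟨y, hy, e⟩ := Subgroup.mem_subgroupOf.mp hx
      have : y = x := Subtype.ext e
      rwa [← this]
    · intro hx
      exact Subgroup.mem_subgroupOf.mpr ⟨x, hx, rfl⟩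
  have h2 : Cfsg.pCore p C = (Q : Subgroup C) :=
    le_antisymm (Cfsg.Agent.Lib.Basic.PCore.pCore_le_sylow Q) hle
  rw [Subgroup.relIndex, h1, h2]
  exact Q.not_dvd_index

/-- `[C : ppPart p C]` is a power of `p`. -/
theorem exists_relIndex_ppPart {C : Subgroup G} (hC : Group.IsNilpotent C) :
    ∃ k, (ppPart p C).relIndex C = p ^ k := by
  haveI := hC
  have h1 : (ppPart p C).subgroupOf C = Cfsg.pPrimeCore p C := by
    ext x
    constructor
    · intro hx
      obtain ⟨y, hy, e⟩ := Subgroup.mem_subgroupOf.mp hx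
      have : y = x := Subtype.ext e
      rwa [← this]
    · intro hx
      exact Subgroup.mem_subgroupOf.mpr ⟨x, hx, rfl⟩
  have hq := isPGroup_quotient_pPrimeCore (G := C) p
  obtain ⟨k, hk⟩ := IsPGroup.iff_card.mp hq
  refine ⟨k, ?_⟩
  rw [Subgroup.relIndex, h1, Subgroup.index_eq_card, hk]

theorem ppPart_coprime (C : Subgroup G) : (Nat.card (ppPart p C)).Coprime p :=
  card_ppPart_coprime p C

theorem pPart_ne_bot {C : Subgroup G} (hC : Group.IsNilpotent C) (h : p ∣ Nat.card C) :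
    pPart p C ≠ ⊥ := by
  intro hb
  obtain ⟨x, hx⟩ := exists_prime_orderOf_dvd_card' (G := C) p h
  have : (x : G) ∈ pPart p C := by
    refine mem_pPart_of_order hC x.2 (k := 1) ?_
    rw [pow_one, Subgroup.orderOf_coe, hx]
  rw [hb, Subgroup.mem_bot] at this
  have h2 : x = 1 := Subtype.ext this
  rw [h2, orderOf_one] at hx
  exact hp.out.one_lt.ne hx

theorem ppPart_ne_bot {C : Subgroup G} (hC : Group.IsNilpotent C) {q : ℕ} [hq : Fact q.Prime]
    (hpq : p ≠ q) (h : q ∣ Nat.card C) : ppPart p C ≠ ⊥ := by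
  intro hb
  obtain ⟨x, hx⟩ := exists_prime_orderOf_dvd_card' (G := C) q h
  have : (x : G) ∈ ppPart p C := by
    refine mem_ppPart_of hC x.2 ?_
    rw [Subgroup.orderOf_coe, hx]
    exact (Nat.coprime_primes hq.out hp.out).2 hpq.symm
  rw [hb, Subgroup.mem_bot] at this
  have h2 : x = 1 := Subtype.ext this
  rw [h2, orderOf_one] at hx
  exact hq.out.one_lt.ne hx

end nil

end Cfsg.Agent.Lib.KW
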