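import Cfsg.Agent.Lib.KW.Tools
import Cfsg.Agent.S0566

set_option autoImplicit false

/-!
# The Kegel-Wielandt theorem: the coprime simple case, local analysis

A minimal counterexample is a simple group `G = AB` with `A`, `B` nilpotent of coprime orders, each
with at least two prime divisors.  `KWData` packages this.
-/

namespace Cfsg.Agent.Lib.KW

open Subgroup Cfsg.Agent.Lib.Solvable.Carter
open scoped Pointwise

variable {G : Type*} [Group G] [Finite G]

/-- The data of a minimal counterexample to the Kegel-Wielandt theorem. -/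
structure KWData (A B : Subgroup G) : Prop where
  nilA : Group.IsNilpotent A
  nilB : Group.IsNilpotent B
  cop : (Nat.card A).Coprime (Nat.card B)
  fac : ∀ g : G, ∃ a ∈ A, ∃ b ∈ B, g = a * b
  simple : ∀ N : Subgroup G, N.Normal → N = ⊥ ∨ N = ⊤
  ih : ∀ S : Subgroup G, S ≠ ⊤ → ∀ A₁ B₁ : Subgroup G, A₁ ≤ S → B₁ ≤ S →
    Group.IsNilpotent A₁ → Group.IsNilpotent B₁ →
    (∀ g ∈ S, ∃ a ∈ A₁, ∃ b ∈ B₁, g = a * b) → Group.IsSolvable S
  twoA : ∃ p q : ℕ, p.Prime ∧ q.Prime ∧ p ≠ q ∧ p ∣ Nat.card A ∧ q ∣ Nat.card A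
  twoB : ∃ p q : ℕ, p.Prime ∧ q.Prime ∧ p ≠ q ∧ p ∣ Nat.card B ∧ q ∣ Nat.card B

namespace KWData

variable {A B : Subgroup G} (h : KWData A B)
include h

theorem fac_inv (g : G) : ∃ b ∈ B, ∃ a ∈ A, g = b * a :=
  Cfsg.Agent.Lib.Solvable.Product.exists_mul_of_inv h.fac g

theorem swap : KWData B A where
  nilA := h.nilB
  nilB := h.nilA
  cop := h.cop.symm
  fac := h.fac_inv
  simple := h.simple
  ih := h.ih
  twoA := h.twoB
  twoB := h.twoA

theorem eq_one_of_mem {x : G} (hA : x ∈ A) (hB : x ∈ B) : x = 1 := by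
  have h1 : orderOf x ∣ Nat.card A := Subgroup.orderOf_dvd_natCard A hA
  have h2 : orderOf x ∣ Nat.card B := Subgroup.orderOf_dvd_natCard B hB
  have := Nat.eq_one_of_dvd_coprimes h.cop h1 h2
  exact orderOf_eq_one_iff.mp this

theorem inf_eq_bot : A ⊓ B = ⊥ := by
  rw [eq_bot_iff]
  intro x hx
  exact h.eq_one_of_mem hx.1 hx.2

theorem card_eq : Nat.card G = Nat.card A * Nat.card B := by
  have := Cfsg.Agent.Lib.Solvable.Product.card_mul_card_inf h.fac
  rw [h.inf_eq_bot] at this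
  simpa using this

theorem index_A : A.index = Nat.card B := by
  have h1 := Subgroup.card_mul_index A
  rw [h.card_eq] at h1
  exact Nat.eq_of_mul_eq_mul_left Nat.card_pos h1

theorem not_dvd_B {p : ℕ} (hp : p.Prime) (hd : p ∣ Nat.card A) : ¬ p ∣ Nat.card B := by
  intro h2
  exact hp.one_lt.ne' (Nat.eq_one_of_dvd_coprimes h.cop hd h2)

theorem A_ne_bot : A ≠ ⊥ := by
  obtain ⟨p, -, hp, -, -, hd, -⟩ := h.twoA
  intro hb
  rw [hb, Subgroup.card_bot] at hd
  exact hp.one_lt.ne' (Nat.dvd_one.mp hd)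

theorem B_ne_bot : B ≠ ⊥ := h.swap.A_ne_bot

theorem A_ne_top : A ≠ ⊤ := by
  intro ht
  have : B = ⊥ := by
    rw [eq_bot_iff]
    intro x hx
    exact h.eq_one_of_mem (by rw [ht]; trivial) hx
  exact h.B_ne_bot this

theorem B_ne_top : B ≠ ⊤ := h.swap.A_ne_top

/-- No proper nontrivial subgroup is normal. -/
theorem nz_ne_top {R : Subgroup G} (h1 : R ≠ ⊥) (h2 : R ≠ ⊤) : Nz R ≠ ⊤ := by
  intro ht
  have hn : R.Normal := Subgroup.normalizer_eq_top_iff.mp ht
  rcases h.simple R hn with h3 | h3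
  · exact h1 h3
  · exact h2 h3

theorem ne_top_of_le_A {R : Subgroup G} (hR : R ≤ A) : R ≠ ⊤ := by
  rintro rfl
  exact h.A_ne_top (top_le_iff.mp hR)

theorem ne_top_of_le_B {R : Subgroup G} (hR : R ≤ B) : R ≠ ⊤ := by
  rintro rfl
  exact h.B_ne_top (top_le_iff.mp hR)

theorem center_triv {x : G} (hx : x ∈ Subgroup.center G) : x = 1 := by
  have hn : (Subgroup.center G).Normal := inferInstance
  rcases h.simple _ hn with h3 | h3
  · rw [h3] at hx
    exact hx
  · -- `G` abelian: `A` would be normal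
    exfalso
    have hnA : A.Normal := by
      constructor
      intro a ha g
      have hc : g ∈ Subgroup.center G := by rw [h3]; trivial
      have := (Subgroup.mem_center_iff.mp hc a)
      rw [← this, mul_assoc, mul_inv_cancel, mul_one]
      exact ha
    rcases h.simple A hnA with h4 | h4
    · exact h.A_ne_bot h4
    · exact h.A_ne_top h4

theorem centralizer_ne_top {x : G} (hx : x ≠ 1) : Subgroup.centralizer ({x} : Set G) ≠ ⊤ := by
  intro ht
  apply hx
  apply h.center_triv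
  rw [Subgroup.mem_center_iff]
  intro g
  have : g ∈ Subgroup.centralizer ({x} : Set G) := by rw [ht]; trivial
  exact (Subgroup.mem_centralizer_iff.mp this x rfl).symm

/-- Hall subgroups inside `A`. -/
theorem hall_sub {D : Subgroup G} (hDA : D ≤ A) (hc : (Nat.card D).Coprime (D.relIndex A)) :
    (Nat.card D).Coprime D.index := by
  rw [← Subgroup.relIndex_mul_index hDA, h.index_A]
  refine Nat.Coprime.mul_right hc ?_
  exact Nat.Coprime.coprime_dvd_left (Subgroup.card_dvd_of_le hDA) h.cop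

theorem hallP (s : ℕ) [hs : Fact s.Prime] :
    (Nat.card (pPart s A)).Coprime (pPart s A).index := by
  refine h.hall_sub (pPart_le s A) ?_
  obtain ⟨k, hk⟩ := IsPGroup.iff_card.mp (isPGroup_pPart (p := s) A)
  rw [hk]
  exact Nat.Coprime.pow_left _ ((Nat.Prime.coprime_iff_not_dvd hs.out).2
    (not_dvd_relIndex_pPart h.nilA))

theorem hallC (s : ℕ) [hs : Fact s.Prime] :
    (Nat.card (ppPart s A)).Coprime (ppPart s A).index := by
  refine h.hall_sub (ppPart_le s A) ?_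
  obtain ⟨k, hk⟩ := exists_relIndex_ppPart (p := s) h.nilA
  rw [hk]
  exact Nat.Coprime.pow_right _ (ppPart_coprime A)

theorem not_dvd_index_pPart {s : ℕ} [hs : Fact s.Prime] (hsB : ¬ s ∣ Nat.card B) :
    ¬ s ∣ (pPart s A).index := by
  rw [← Subgroup.relIndex_mul_index (pPart_le s A), h.index_A]
  intro hd
  rcases (Nat.Prime.dvd_mul hs.out).1 hd with h1 | h1
  · exact not_dvd_relIndex_pPart h.nilA h1
  · exact hsB h1

/-- An `s`-subgroup can be conjugated into `pPart s A` by an element of `B`. -/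
theorem sylowA {s : ℕ} [Fact s.Prime] (hsB : ¬ s ∣ Nat.card B) {R : Subgroup G}
    (hR : IsPGroup s R) : ∃ b ∈ B, ∀ r ∈ R, b⁻¹ * r * b ∈ pPart s A := by
  let S : Sylow s G := (isPGroup_pPart A).toSylow (h.not_dvd_index_pPart hsB)
  obtain ⟨y, hy⟩ := Cfsg.Agent.Lib.Transfer.Frobenius.exists_conj_mem_of_isPGroup S hR
  obtain ⟨b, hb, a, ha, e⟩ := h.fac_inv y⁻¹
  refine ⟨b, hb, ?_⟩
  intro r hr
  have h1 : y * r * y⁻¹ ∈ pPart s A := hy r hr
  have h2 := conj_mem_nz (le_nz_pPart (p := s) h.nilA ha) h1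
  have e2 : y = a⁻¹ * b⁻¹ := by
    have : y = (y⁻¹)⁻¹ := by simp
    rw [this, e]; simp
  have e3 : a * (y * r * y⁻¹) * a⁻¹ = b⁻¹ * r * b := by
    rw [e2]; group
  rwa [e3] at h2

/-- **Kegel**: normal subgroups of the factors which permute. -/
theorem k1 {D W X : Subgroup G} (hDA : D ≤ A) (hDn : A ≤ Nz D) (hD : D ≠ ⊥) (hWB : W ≤ B)
    (hWn : B ≤ Nz W) (hW : W ≠ ⊥) (hX : (X : Set G) = (D : Set G) * (W : Set G)) (hXt : X ≠ ⊤) :
    False := by
  obtain ⟨N, hN, hNt, hor⟩ := Cfsg.Agent.S0566.result D W hD hW (by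
    intro x
    obtain ⟨a, ha, b, hb, rfl⟩ := h.fac x
    refine ⟨cj a X, ?_, ?_⟩
    · intro ht
      apply hXt
      rw [eq_top_iff]
      intro y _
      have : a * y * a⁻¹ ∈ cj a X := by rw [ht]; trivial
      rw [mem_cj] at this
      have e : a⁻¹ * (a * y * a⁻¹) * a = y := by group
      rwa [e] at this
    · ext y
      rw [SetLike.mem_coe, mem_cj, ← SetLike.mem_coe, hX]
      simp only [Set.mem_mul, SetLike.mem_coe]
      constructor
      · rintro ⟨d, hd, w, hw, e⟩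
        refine ⟨a * d * a⁻¹, conj_mem_nz (hDn ha) hd, a * w * a⁻¹, ?_, ?_⟩
        · rw [mem_conj_smul]
          have e1 : (a * b)⁻¹ * (a * w * a⁻¹) * (a * b) = b⁻¹ * w * b := by group
          rw [e1]
          exact inv_conj_mem_nz (hWn hb) hw
        · have : y = a * (a⁻¹ * y * a) * a⁻¹ := by group
          rw [this, ← e]; group
      · rintro ⟨d, hd, w, hw, rfl⟩
        rw [mem_conj_smul] at hw
        refine ⟨a⁻¹ * d * a, inv_conj_mem_nz (hDn ha) hd, a⁻¹ * w * a, ?_, by group⟩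
        have e1 := conj_mem_nz (hWn hb) hw
        have e2 : b * ((a * b)⁻¹ * w * (a * b)) * b⁻¹ = a⁻¹ * w * a := by group
        rwa [e2] at e1)
  rcases h.simple N hN with h3 | h3
  · rcases hor with h4 | h4
    · rw [h3] at h4; exact hD (le_bot_iff.mp h4)
    · rw [h3] at h4; exact hW (le_bot_iff.mp h4)
  · exact hNt h3

/-- **K2**: a nontrivial normal Hall subgroup of `A` normalizes no nontrivial prime power subgroup
of `B`. -/
theorem k2 {D E : Subgroup G} {t : ℕ} [ht : Fact t.Prime] (hDA : D ≤ A) (hDn : A ≤ Nz D)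
    (hDH : (Nat.card D).Coprime D.index) (hD : D ≠ ⊥) (hEB : E ≤ B) (hEt : IsPGroup t E)
    (hDE : D ≤ Nz E) (hE : E ≠ ⊥) : False := by
  have htB : t ∣ Nat.card B := by
    have hnt : Nontrivial E := (Subgroup.nontrivial_iff_ne_bot E).2 hE
    obtain ⟨k, hk⟩ := IsPGroup.iff_card.mp hEt
    have hk0 : k ≠ 0 := by
      rintro rfl
      rw [pow_zero] at hk
      exact hE (Subgroup.card_eq_one.mp hk)
    exact (hk ▸ dvd_pow_self t hk0 : t ∣ Nat.card E).trans (Subgroup.card_dvd_of_le hEB)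
  have htA : ¬ t ∣ Nat.card A := h.swap.not_dvd_B ht.out htB
  set T := pPart t B with hT
  have hET : E ≤ T := le_pPart h.nilB hEB hEt
  have hTB : T ≤ B := pPart_le t B
  have hEhat : E ≤ hat T D := le_hat hET hDE
  have hne : hat T D ≠ ⊥ := by
    intro hb
    rw [hb] at hEhat
    exact hE (le_bot_iff.mp hEhat)
  have hhB : hat T D ≤ B := (hat_le T D).trans hTB
  have hSt : Nz (hat T D) ≠ ⊤ := h.nz_ne_top hne (h.ne_top_of_le_B hhB)
  -- factorization
  have hfacS : ∀ g ∈ Nz (hat T D), ∃ a ∈ A ⊓ Nz (hat T D), ∃ b ∈ B ⊓ Nz (hat T D), g = a * b := by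
    intro g hg
    obtain ⟨l, hl, m, hm, e⟩ := hat_factor h.fac_inv (le_nz_pPart (p := t) h.nilB) hDn
      (Subgroup.inv_mem _ hg)
    refine ⟨m⁻¹, Subgroup.inv_mem _ hm, l⁻¹, Subgroup.inv_mem _ hl, ?_⟩
    rw [← mul_inv_rev, ← e, inv_inv]
  have hsolv := h.ih _ hSt (A ⊓ Nz (hat T D)) (B ⊓ Nz (hat T D)) inf_le_right inf_le_right
    (isNilpotent_of_le' inf_le_left h.nilA) (isNilpotent_of_le' inf_le_left h.nilB) hfacS
  -- the `t'`-part of `B`
  obtain ⟨q, hq⟩ : ∃ q : ℕ, q.Prime ∧ q ≠ t ∧ q ∣ Nat.card B := by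
    obtain ⟨p₁, p₂, h1, h2, h12, d1, d2⟩ := h.twoB
    by_cases hp : p₁ = t
    · exact ⟨p₂, h2, fun e => h12 (hp.trans e.symm), d2⟩
    · exact ⟨p₁, h1, hp, d1⟩
  haveI : Fact q.Prime := ⟨hq.1⟩
  have hWne : ppPart t B ≠ ⊥ := ppPart_ne_bot (q := q) h.nilB hq.2.1.symm hq.2.2
  have hWS : ppPart t B ≤ Nz (hat T D) := by
    intro w hw
    apply mem_nz_of_conj
    intro x hx
    have hcomm := commute_pPart_ppPart h.nilB (hat_le T D hx) hw
    have : w * x * w⁻¹ = x := by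
      rw [← hcomm.eq]; group
    rwa [this]
  have hDS : D ≤ Nz (hat T D) := le_nz_hat T D
  obtain ⟨X, hX⟩ := exists_subgroup_of_hall_in hsolv inf_le_right inf_le_right hfacS
    (le_inf hDA hDS) (le_inf (ppPart_le t B) hWS)
    (inf_le_left.trans hDn) (inf_le_left.trans (le_nz_ppPart h.nilB))
    hDH (h.swap.hallC t)
  refine h.k1 hDA hDn hD (ppPart_le t B) (le_nz_ppPart h.nilB) hWne hX ?_
  -- `X` is not everything
  intro hXt
  have h1 := Cfsg.Agent.Lib.Basic.ProductCard.ncard_mul_mul_card_inf D (ppPart t B)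
  rw [← hX, hXt] at h1
  simp only [Subgroup.coe_top, Set.ncard_univ] at h1
  have h2 : t ∣ Nat.card D * Nat.card (ppPart t B) := by
    rw [← h1, h.card_eq]
    exact Dvd.dvd.mul_right (Dvd.dvd.mul_left htB _) _
  rcases (Nat.Prime.dvd_mul ht.out).1 h2 with h3 | h3
  · exact htA (h3.trans (Subgroup.card_dvd_of_le hDA))
  · exact ht.out.one_lt.ne' (Nat.eq_one_of_dvd_coprimes (ppPart_coprime B) h3 (dvd_refl t))

/-- `ppPart s A` is a nontrivial normal Hall subgroup. -/
theorem ppPart_ne_bot_A (s : ℕ) [hs : Fact s.Prime] : ppPart s A ≠ ⊥ := by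
  obtain ⟨p₁, p₂, h1, h2, h12, d1, d2⟩ := h.twoA
  by_cases hp : p₁ = s
  · haveI : Fact p₂.Prime := ⟨h2⟩
    exact ppPart_ne_bot (q := p₂) h.nilA (fun e => h12 (hp.trans e)) d2
  · haveI : Fact p₁.Prime := ⟨h1⟩
    exact ppPart_ne_bot (q := p₁) h.nilA (fun e => hp e.symm) d1

/-- A subgroup normalized by `A` and a nontrivial central element of `B` is normal. -/
theorem normalizer_eq_top_of {z : G} {L : Subgroup G} (hz : ∀ b ∈ B, Commute b z)
    (hz1 : z ≠ 1) (hA : A ≤ Nz L) (hzL : z ∈ Nz L) : Nz L = ⊤ := by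
  have hcl : Subgroup.normalClosure ({z} : Set G) ≤ Nz L := by
    refine (Subgroup.closure_le _).2 ?_
    intro x hx
    obtain ⟨y, hy, hc⟩ := Group.mem_conjugatesOfSet_iff.mp hx
    rw [Set.mem_singleton_iff] at hy
    subst hy
    obtain ⟨c, rfl⟩ := isConj_iff.mp hc
    obtain ⟨a, ha, b, hb, rfl⟩ := h.fac c
    have e : a * b * y * (a * b)⁻¹ = a * y * a⁻¹ := by
      have : b * y * b⁻¹ = y := by rw [(hz b hb).eq]; group
      calc a * b * y * (a * b)⁻¹ = a * (b * y * b⁻¹) * a⁻¹ := by group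
        _ = a * y * a⁻¹ := by rw [this]
    change a * b * y * (a * b)⁻¹ ∈ Nz L
    rw [e]
    exact Subgroup.mul_mem _ (Subgroup.mul_mem _ (hA ha) hzL) (Subgroup.inv_mem _ (hA ha))
  rcases h.simple _ (Subgroup.normalClosure_normal (s := {z})) with h3 | h3
  · exfalso
    have : z ∈ Subgroup.normalClosure ({z} : Set G) :=
      Subgroup.subset_normalClosure (Set.mem_singleton z)
    rw [h3] at this
    exact hz1 this
  · rw [h3] at hcl
    exact top_le_iff.mp hcl

/-- **K3**: a nontrivial central element of `B` normalizes no nontrivial prime power subgroup of `A`. -/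
theorem k3 {z : G} {E : Subgroup G} {s : ℕ} [hs : Fact s.Prime] (hz : ∀ b ∈ B, Commute b z)
    (hz1 : z ≠ 1) (hEA : E ≤ A) (hEs : IsPGroup s E) (hzE : z ∈ Nz E) (hE : E ≠ ⊥) : False := by
  classical
  set T := pPart s A with hT
  have hTA : T ≤ A := pPart_le s A
  set D := Subgroup.zpowers z with hD
  have hET : E ≤ T := le_pPart h.nilA hEA hEs
  have hDE : D ≤ Nz E := by
    rw [hD, Subgroup.zpowers_le]; exact hzE
  have hEhat : E ≤ hat T D := le_hat hET hDE
  have hne : hat T D ≠ ⊥ := by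
    intro hb
    rw [hb] at hEhat
    exact hE (le_bot_iff.mp hEhat)
  have hhA : hat T D ≤ A := (hat_le T D).trans hTA
  set S := Nz (hat T D) with hS
  have hSt : S ≠ ⊤ := h.nz_ne_top hne (h.ne_top_of_le_A hhA)
  have hBD : B ≤ Nz D := by
    intro b hb
    apply mem_nz_of_conj
    rintro x ⟨k, rfl⟩
    have hcomm : Commute b ((fun k : ℤ => z ^ k) k) := (hz b hb).zpow_right k
    have : b * (fun k : ℤ => z ^ k) k * b⁻¹ = (fun k : ℤ => z ^ k) k := by
      rw [hcomm.eq]; group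
    rw [this]
    exact ⟨k, rfl⟩
  have hfacS : ∀ g ∈ S, ∃ a ∈ A ⊓ S, ∃ b ∈ B ⊓ S, g = a * b := by
    intro g hg
    exact hat_factor h.fac (le_nz_pPart (p := s) h.nilA) hBD hg
  have hfacS' : ∀ g ∈ S, ∃ b ∈ B ⊓ S, ∃ a ∈ A ⊓ S, g = b * a := by
    intro g hg
    obtain ⟨a, ha, b, hb, e⟩ := hfacS g⁻¹ (Subgroup.inv_mem _ hg)
    refine ⟨b⁻¹, Subgroup.inv_mem _ hb, a⁻¹, Subgroup.inv_mem _ ha, ?_⟩
    rw [← mul_inv_rev, ← e, inv_inv]
  have hsolv := h.ih _ hSt (A ⊓ S) (B ⊓ S) inf_le_right inf_le_right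
    (isNilpotent_of_le' inf_le_left h.nilA) (isNilpotent_of_le' inf_le_left h.nilB) hfacS
  -- another prime
  obtain ⟨s₁, hs₁, hne₁, hd₁⟩ : ∃ q : ℕ, q.Prime ∧ q ≠ s ∧ q ∣ Nat.card A := by
    obtain ⟨p₁, p₂, h1, h2, h12, d1, d2⟩ := h.twoA
    by_cases hp : p₁ = s
    · exact ⟨p₂, h2, fun e => h12 (hp.trans e.symm), d2⟩
    · exact ⟨p₁, h1, hp, d1⟩
  haveI : Fact s₁.Prime := ⟨hs₁⟩
  have hCS : ppPart s A ≤ S := by
    intro w hw
    apply mem_nz_of_conj
    intro x hx
    have hcomm := commute_pPart_ppPart h.nilA (hat_le T D hx) hw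
    have : w * x * w⁻¹ = x := by
      rw [← hcomm.eq]; group
    rwa [this]
  -- a central element of `pPart s₁ A`
  have hW₁ : pPart s₁ A ≠ ⊥ := pPart_ne_bot h.nilA hd₁
  haveI : Nontrivial (pPart s₁ A) := (Subgroup.nontrivial_iff_ne_bot _).2 hW₁
  haveI hcen := (isPGroup_pPart (p := s₁) A).center_nontrivial
  obtain ⟨w', hw1⟩ := exists_ne (1 : Subgroup.center (pPart s₁ A))
  set w : G := ((w' : pPart s₁ A) : G) with hw
  have hwP : w ∈ pPart s₁ A := (w' : pPart s₁ A).2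
  have hwne : w ≠ 1 := by
    intro e
    apply hw1
    apply Subtype.ext
    apply Subtype.ext
    exact e
  have hwc : ∀ v ∈ pPart s₁ A, Commute w v := by
    intro v hv
    have := Subgroup.mem_center_iff.mp w'.2 ⟨v, hv⟩
    exact (congrArg Subtype.val this).symm
  have hwC : w ∈ ppPart s A := by
    refine mem_ppPart_of h.nilA (pPart_le s₁ A hwP) ?_
    obtain ⟨k, hk⟩ := order_of_isPGroup (isPGroup_pPart A) hwP
    rw [hk]
    exact Nat.Coprime.pow_left _ ((Nat.coprime_primes hs₁ hs.out).2 hne₁)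
  obtain ⟨k₀, hk₀⟩ := order_of_isPGroup (isPGroup_pPart A) hwP
  -- `R ≤ A` for normal `r`-subgroups, `r ∤ |B|`
  have hRA : ∀ (r : ℕ) [Fact r.Prime] (R : Subgroup G), R ≤ S → S ≤ Nz R → IsPGroup r R →
      ¬ r ∣ Nat.card B → R ≤ A ⊓ S := by
    intro r _ R hRS hRn hRp hr
    refine le_of_normal_factor inf_le_right inf_le_right hfacS' hRS hRn ?_
    obtain ⟨k, hk⟩ := IsPGroup.iff_card.mp hRp
    rw [hk]
    refine Nat.Coprime.pow_left _ ?_
    rw [Nat.Prime.coprime_iff_not_dvd Fact.out]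
    intro hd
    exact hr (hd.trans (Subgroup.card_dvd_of_le inf_le_left))
  obtain ⟨R₀, hR₀S, hR₀n, hR₀p, hwR₀⟩ := exists_normal_pgroup_of_commute hsolv (hCS hwC) hk₀ (by
    intro r _ R hRS hRn hRp u hu
    by_cases hr : r ∣ Nat.card B
    · -- `R ≤ B`, killed by K2
      have hrA : ¬ r ∣ Nat.card A := h.swap.not_dvd_B Fact.out hr
      have hRB : R ≤ B ⊓ S := by
        refine le_of_normal_factor inf_le_right inf_le_right hfacS hRS hRn ?_
        obtain ⟨k, hk⟩ := IsPGroup.iff_card.mp hRp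
        rw [hk]
        refine Nat.Coprime.pow_left _ ?_
        rw [Nat.Prime.coprime_iff_not_dvd Fact.out]
        intro hd
        exact hrA (hd.trans (Subgroup.card_dvd_of_le inf_le_left))
      have hbot : R = ⊥ := by
        by_contra hR
        exact h.k2 (ppPart_le s A) (le_nz_ppPart h.nilA) (h.hallC s) (h.ppPart_ne_bot_A s)
          (hRB.trans inf_le_left) hRp (hCS.trans hRn) hR
      rw [hbot, Subgroup.mem_bot] at hu
      rw [hu]
      exact Commute.one_right w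
    · have hR := hRA r R hRS hRn hRp hr
      have hu' : u ∈ pPart r A := le_pPart h.nilA (hR.trans inf_le_left) hRp hu
      by_cases hrs : s₁ = r
      · subst hrs
        exact hwc u hu'
      · exact commute_pPart_pPart h.nilA hrs hwP hu')
  have hs₁B : ¬ s₁ ∣ Nat.card B := h.not_dvd_B hs₁ hd₁
  have hR₀A : R₀ ≤ A := (hRA s₁ R₀ hR₀S hR₀n hR₀p hs₁B).trans inf_le_left
  have hR₀ne : R₀ ≠ ⊥ := by
    rintro rfl
    exact hwne hwR₀
  have hAN : A ≤ Nz R₀ := by
    intro a ha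
    obtain ⟨a₁, ha₁, a₂, ha₂, rfl⟩ := exists_parts (p := s) h.nilA ha
    refine Subgroup.mul_mem _ ?_ (hR₀n (hCS ha₂))
    apply mem_nz_of_conj
    intro x hx
    have hx' : x ∈ pPart s₁ A := le_pPart h.nilA hR₀A hR₀p hx
    have hcomm := commute_pPart_pPart h.nilA (fun e => hne₁ e.symm) ha₁ hx'
    have : a₁ * x * a₁⁻¹ = x := by rw [hcomm.eq]; group
    rwa [this]
  have hzS : z ∈ S := le_nz_hat T D (Subgroup.mem_zpowers z)
  exact h.nz_ne_top hR₀ne (h.ne_top_of_le_A hR₀A) (h.normalizer_eq_top_of hz hz1 hAN (hR₀n hzS))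

/-- **K3'**: a nontrivial central element of `B` normalizes no nontrivial `r`-subgroup of `G`, `r ∤ |B|`. -/
theorem k3' {z : G} {R : Subgroup G} {r : ℕ} [Fact r.Prime] (hz : ∀ b ∈ B, Commute b z)
    (hz1 : z ≠ 1) (hrB : ¬ r ∣ Nat.card B) (hR : IsPGroup r R) (hzR : z ∈ Nz R) : R = ⊥ := by
  by_contra hne
  obtain ⟨b, hb, hbR⟩ := h.sylowA hrB hR
  refine h.k3 (E := cj b⁻¹ R) (s := r) hz hz1 ?_ (isPGroup_cj hR) ?_ ?_
  · rintro x hx
    rw [mem_cj, inv_inv] at hx
    have := hbR _ hx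
    have e : b⁻¹ * (b * x * b⁻¹) * b = x := by group
    rw [e] at this
    exact pPart_le r A this
  · apply mem_nz_of_conj
    intro x hx
    rw [mem_cj, inv_inv] at hx ⊢
    have h1 := conj_mem_nz hzR hx
    have hcomm : b * z = z * b := (hz b hb).eq
    have e : b * (z * x * z⁻¹) * b⁻¹ = z * (b * x * b⁻¹) * z⁻¹ := by
      calc b * (z * x * z⁻¹) * b⁻¹ = (b * z) * x * (b * z)⁻¹ := by group
        _ = (z * b) * x * (z * b)⁻¹ := by rw [hcomm]
        _ = z * (b * x * b⁻¹) * z⁻¹ := by group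
    rwa [e]
  · intro hb
    exact hne (cj_eq_bot hb)

/-- `C(z) = B` for a nontrivial central element `z` of `B`. -/
theorem mem_B_of_commute {z g : G} (hz : ∀ b ∈ B, Commute b z) (hz1 : z ≠ 1) (hg : Commute g z) :
    g ∈ B := by
  obtain ⟨a, ha, b, hb, rfl⟩ := h.fac g
  have hac : Commute a z := by
    have h1 := hz b hb
    have h2 : a = a * b * b⁻¹ := by group
    rw [h2]
    exact hg.mul_left h1.inv_left
  by_cases ha1 : a = 1
  · rw [ha1, one_mul]; exact hb
  exfalso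
  obtain ⟨r, k, hr, hrd, hk1, hko⟩ := exists_prime_order_pow ha1
  haveI : Fact r.Prime := ⟨hr⟩
  have hrA : r ∣ Nat.card A := hrd.trans (Subgroup.orderOf_dvd_natCard A ha)
  have hrB := h.not_dvd_B hr hrA
  have hp : IsPGroup r (Subgroup.zpowers (a ^ k)) := by
    apply IsPGroup.of_card (n := 1)
    rw [Nat.card_zpowers, hko, pow_one]
  have hb' := h.k3' hz hz1 hrB hp (by
    apply mem_nz_of_conj
    rintro x ⟨j, rfl⟩
    have hcomm : Commute z ((fun j : ℤ => (a ^ k) ^ j) j) := ((hac.pow_left k).symm).zpow_right j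
    have : z * (fun j : ℤ => (a ^ k) ^ j) j * z⁻¹ = (fun j : ℤ => (a ^ k) ^ j) j := by
      rw [hcomm.eq]; group
    rw [this]
    exact ⟨j, rfl⟩)
  rw [Subgroup.zpowers_eq_bot] at hb'
  exact hk1 hb'

/-- **W**: the normalizer of the `s'`-part of `A` normalizes `A`. -/
theorem w (s : ℕ) [hs : Fact s.Prime] : Nz (ppPart s A) ≤ Nz A := by
  classical
  set U := ppPart s A with hU
  set S := Nz U with hS
  have hAS : A ≤ S := le_nz_ppPart h.nilA
  set C : Subgroup G := S ⊓ Subgroup.centralizer (U : Set G) with hC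
  have hCn : S ≤ Nz C := by
    intro g hg
    apply mem_nz_of_conj
    intro c hc
    have hc' := Subgroup.mem_inf.mp hc
    refine Subgroup.mem_inf.mpr ⟨S.mul_mem (S.mul_mem hg hc'.1) (S.inv_mem hg),
      Subgroup.mem_centralizer_iff.mpr ?_⟩
    intro u hu
    have hu' : g⁻¹ * u * g ∈ U := inv_conj_mem_nz hg hu
    have h1 := Subgroup.mem_centralizer_iff.mp hc'.2 _ hu'
    have e : u = g * (g⁻¹ * u * g) * g⁻¹ := by group
    calc u * (g * c * g⁻¹) = g * ((g⁻¹ * u * g) * c) * g⁻¹ := by group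
      _ = g * (c * (g⁻¹ * u * g)) * g⁻¹ := by rw [h1]
      _ = g * c * g⁻¹ * u := by group
  have hfac1 : ∀ g ∈ S, ∃ a ∈ A, ∃ b ∈ B ⊓ S, g = a * b := by
    intro g hg
    obtain ⟨a, ha, b, hb, rfl⟩ := h.fac g
    refine ⟨a, ha, b, ⟨hb, ?_⟩, rfl⟩
    have := S.mul_mem (S.inv_mem (hAS ha)) hg
    simpa using this
  have hfac2 : ∀ g ∈ S, ∃ b ∈ B ⊓ S, ∃ a ∈ A, g = b * a := by
    intro g hg
    obtain ⟨a, ha, b, hb, e⟩ := hfac1 g⁻¹ (S.inv_mem hg)
    refine ⟨b⁻¹, Subgroup.inv_mem _ hb, a⁻¹, A.inv_mem ha, ?_⟩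
    rw [← mul_inv_rev, ← e, inv_inv]
  -- `C` is a `π`-group
  have hCcop : (Nat.card C).Coprime (Nat.card B) := by
    by_contra hnc
    obtain ⟨t, ht, hd⟩ := Nat.Prime.not_coprime_iff_dvd.mp hnc
    haveI : Fact t.Prime := ⟨ht⟩
    obtain ⟨c, hc⟩ := exists_prime_orderOf_dvd_card' (G := C) t hd.1
    have hc0 : orderOf (c : G) = t := by rw [Subgroup.orderOf_coe, hc]
    have hcp : IsPGroup t (Subgroup.zpowers (c : G)) := by
      apply IsPGroup.of_card (n := 1)
      rw [Nat.card_zpowers, hc0, pow_one]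
    have htA : ¬ t ∣ Nat.card A := h.swap.not_dvd_B ht hd.2
    set K := B ⊓ S with hK
    have hKS : K ≤ S := inf_le_right
    have hK₀ : pPart t K ≤ S := (pPart_le t K).trans hKS
    have hcS : Subgroup.zpowers (c : G) ≤ S := by
      rw [Subgroup.zpowers_le]
      exact (Subgroup.mem_inf.mp c.2).1
    have hi : ¬ t ∣ (pPart t K).relIndex S := by
      intro hd2
      rw [← Subgroup.relIndex_mul_relIndex _ K S (pPart_le t K) hKS] at hd2
      rcases (Nat.Prime.dvd_mul ht).1 hd2 with h4 | h4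
      · exact not_dvd_relIndex_pPart (isNilpotent_of_le' inf_le_left h.nilB) h4
      · exact htA (h4.trans (Cfsg.Agent.Lib.KW.relIndex_dvd_of_factor hAS hKS hfac1))
    obtain ⟨c₁, hc₁, hcc⟩ := sylow_conj_in hK₀ hcS (isPGroup_pPart K) hcp hi
    set w := c₁⁻¹ * (c : G) * c₁ with hw
    have hwK := hcc c (Subgroup.mem_zpowers _)
    have hwB : w ∈ B := (Subgroup.mem_inf.mp (pPart_le t K hwK)).1
    have hwC : w ∈ C := inv_conj_mem_nz (hCn hc₁) c.2
    have hw1 : w ≠ 1 := by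
      intro e
      have : (c : G) = 1 := by
        have h5 : (c : G) = c₁ * w * c₁⁻¹ := by rw [hw]; group
        rw [h5, e]; group
      rw [this, orderOf_one] at hc0
      exact ht.one_lt.ne hc0
    have hwo : orderOf w = t := by
      rw [hw, ← hc0]
      simpa using orderOf_conj_eq c₁⁻¹ (c : G)
    have hwp : IsPGroup t (Subgroup.zpowers w) := by
      apply IsPGroup.of_card (n := 1)
      rw [Nat.card_zpowers, hwo, pow_one]
    have hwc := Subgroup.mem_centralizer_iff.mp (Subgroup.mem_inf.mp hwC).2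
    refine h.k2 (E := Subgroup.zpowers w) (ppPart_le s A) (le_nz_ppPart h.nilA) (h.hallC s)
      (h.ppPart_ne_bot_A s) (by rwa [Subgroup.zpowers_le]) hwp ?_ ?_
    · intro u hu
      apply mem_nz_of_conj
      rintro x ⟨j, rfl⟩
      have hcomm : Commute u ((fun j : ℤ => w ^ j) j) := Commute.zpow_right (hwc u hu) j
      have : u * (fun j : ℤ => w ^ j) j * u⁻¹ = (fun j : ℤ => w ^ j) j := by
        rw [hcomm.eq]; group
      rw [this]
      exact ⟨j, rfl⟩
    · rw [Ne, Subgroup.zpowers_eq_bot]; exact hw1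
  have hCA : C ≤ A := by
    refine le_of_normal_factor (H := B ⊓ S) inf_le_right hAS hfac2 inf_le_left hCn ?_
    exact Nat.Coprime.coprime_dvd_right (Subgroup.card_dvd_of_le inf_le_left) hCcop
  have hPC : pPart s A ≤ C := by
    intro x hx
    refine Subgroup.mem_inf.mpr ⟨hAS (pPart_le s A hx), Subgroup.mem_centralizer_iff.mpr ?_⟩
    intro u hu
    exact (commute_pPart_ppPart h.nilA hx hu).eq.symm
  intro g hg
  apply mem_nz_of_conj
  intro a ha
  obtain ⟨a₁, ha₁, a₂, ha₂, rfl⟩ := exists_parts (p := s) h.nilA ha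
  have e : g * (a₁ * a₂) * g⁻¹ = (g * a₁ * g⁻¹) * (g * a₂ * g⁻¹) := by group
  rw [e]
  refine A.mul_mem (hCA (conj_mem_nz (hCn hg) (hPC ha₁))) (ppPart_le s A (conj_mem_nz hg ha₂))

end KWData

end Cfsg.Agent.Lib.KW
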