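import Cfsg.Agent.Lib.KW.TI

set_option autoImplicit false

/-!
# The Kegel-Wielandt theorem: the final count

With the trivial intersection property, Burnside's orbit counting lemma on `G/N(A) × G/N(B)` gives a
contradiction.
-/

namespace Cfsg.Agent.Lib.KW

open Subgroup Cfsg.Agent.Lib.Solvable.Carter
open scoped Pointwise

variable {G : Type*} [Group G] [Finite G]

theorem burnside_trans {G : Type*} [Group G] [Fintype G] {X : Type*} [MulAction G X] [Finite X]
    [Nonempty X] [MulAction.IsPretransitive G X] :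
    ∑ g : G, Nat.card (MulAction.fixedBy X g) = Nat.card G := by
  classical
  haveI := Fintype.ofFinite X
  have h1 := MulAction.sum_card_fixedBy_eq_card_orbits_mul_card_group G X
  have h2 : Fintype.card (MulAction.orbitRel.Quotient G X) = 1 := by
    rw [Fintype.card_eq_one_iff]
    obtain ⟨x⟩ := ‹Nonempty X›
    refine ⟨Quotient.mk _ x, ?_⟩
    intro y
    induction y using Quotient.inductionOn with
    | _ y =>
      apply Quotient.sound
      show y ∈ MulAction.orbit G x
      obtain ⟨g, hg⟩ := MulAction.exists_smul_eq G x y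
      exact ⟨g, hg⟩
  rw [h2, one_mul] at h1
  simp only [Nat.card_eq_fintype_card]
  convert h1

theorem card_fixedBy_prod {G : Type*} [Group G] {X Y : Type*} [MulAction G X] [MulAction G Y] (g : G) :
    Nat.card (MulAction.fixedBy (X × Y) g) =
      Nat.card (MulAction.fixedBy X g) * Nat.card (MulAction.fixedBy Y g) := by
  rw [← Nat.card_prod]
  apply Nat.card_congr
  refine
    { toFun := fun p => (⟨p.1.1, ?_⟩, ⟨p.1.2, ?_⟩)
      invFun := fun q => ⟨(q.1.1, q.2.1), ?_⟩
      left_inv := ?_
      right_inv := ?_ }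
  · have := p.2
    rw [MulAction.mem_fixedBy] at this ⊢
    exact congrArg Prod.fst this
  · have := p.2
    rw [MulAction.mem_fixedBy] at this ⊢
    exact congrArg Prod.snd this
  · rw [MulAction.mem_fixedBy]
    have h1 := q.1.2
    have h2 := q.2.2
    rw [MulAction.mem_fixedBy] at h1 h2
    exact Prod.ext h1 h2
  · intro p; rfl
  · intro q; rfl

theorem mem_fixedBy_coe {H : Subgroup G} {w x : G} :
    ((x : G ⧸ H) ∈ MulAction.fixedBy (G ⧸ H) w) ↔ x⁻¹ * w * x ∈ H := by
  rw [MulAction.mem_fixedBy]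
  show ((w * x : G) : G ⧸ H) = (x : G ⧸ H) ↔ _
  rw [QuotientGroup.eq]
  have e : (w * x)⁻¹ * x = (x⁻¹ * w * x)⁻¹ := by group
  rw [e, H.inv_mem_iff]

namespace KWData

variable {A B : Subgroup G} (h : KWData A B)
include h

/-- A nontrivial `π`-element lies in a unique conjugate of `A`. -/
theorem fixed_card_eq_one {w : G} (hw : w ≠ 1) (hc : (orderOf w).Coprime (Nat.card B)) :
    Nat.card (MulAction.fixedBy (G ⧸ Nz A) w) = 1 := by
  rw [Nat.card_eq_one_iff_unique]
  have hconj : ∀ x : G, orderOf (x⁻¹ * w * x) = orderOf w := by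
    intro x
    simpa using orderOf_conj_eq x⁻¹ w
  refine ⟨⟨?_⟩, ?_⟩
  · rintro ⟨p, hp⟩ ⟨q, hq⟩
    induction p using QuotientGroup.induction_on with
    | _ x =>
    induction q using QuotientGroup.induction_on with
    | _ y =>
    apply Subtype.ext
    have hx := mem_fixedBy_coe.mp hp
    have hy := mem_fixedBy_coe.mp hq
    have hxA : x⁻¹ * w * x ∈ A := h.mem_A_of_nz hx (by rw [hconj]; exact hc)
    have hyA : y⁻¹ * w * y ∈ A := h.mem_A_of_nz hy (by rw [hconj]; exact hc)
    show (x : G ⧸ Nz A) = (y : G ⧸ Nz A)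
    rw [QuotientGroup.eq]
    refine h.swap.ti (v := x⁻¹ * w * x) hxA ?_ ?_
    · have e : (x⁻¹ * y)⁻¹ * (x⁻¹ * w * x) * (x⁻¹ * y) = y⁻¹ * w * y := by group
      rwa [e]
    · intro e
      apply hw
      have : w = x * (x⁻¹ * w * x) * x⁻¹ := by group
      rw [this, e]; group
  · -- existence, from Wielandt
    have hnilz : Group.IsNilpotent (Subgroup.zpowers w) := by
      letI : CommGroup (Subgroup.zpowers w) := IsCyclic.commGroup
      exact CommGroup.isNilpotent
    obtain ⟨c, -, hc'⟩ := wielandt_conj (C := ⊤) (S := A) (U := Subgroup.zpowers w) _ rfl le_top le_top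
      h.nilA hnilz
      (by
        rw [Subgroup.relIndex_top_right, h.index_A]
        exact h.cop)
      (by
        intro q hq hd
        rw [Nat.card_zpowers] at hd
        have h1 : q ∣ Nat.card G := hd.trans (orderOf_dvd_natCard w)
        rw [h.card_eq] at h1
        rcases (Nat.Prime.dvd_mul hq).1 h1 with h2 | h2
        · exact h2
        · exact absurd (Nat.eq_one_of_dvd_coprimes hc hd h2) hq.one_lt.ne')
    have h1 := hc' w (Subgroup.mem_zpowers w)
    refine ⟨⟨((c⁻¹ : G) : G ⧸ Nz A), ?_⟩⟩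
    rw [mem_fixedBy_coe, inv_inv]
    exact Subgroup.le_normalizer h1

/-- The final contradiction. -/
theorem false_of : False := by
  classical
  cases nonempty_fintype G
  have hA := burnside_trans (G := G) (X := G ⧸ Nz A)
  have hB := burnside_trans (G := G) (X := G ⧸ Nz B)
  have key : ∀ x y : G, ∃ g : G, g • ((((1 : G) : G ⧸ Nz A), ((1 : G) : G ⧸ Nz B)) :
      (G ⧸ Nz A) × (G ⧸ Nz B)) = ((x : G ⧸ Nz A), (y : G ⧸ Nz B)) := by
    intro x y
    obtain ⟨a, ha, b, hb, e⟩ := h.fac (x⁻¹ * y)
    refine ⟨x * a, ?_⟩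
    apply Prod.ext
    · show ((x * a * 1 : G) : G ⧸ Nz A) = (x : G ⧸ Nz A)
      rw [QuotientGroup.eq]
      have e2 : (x * a * 1)⁻¹ * x = a⁻¹ := by group
      rw [e2]
      exact Subgroup.le_normalizer (A.inv_mem ha)
    · show ((x * a * 1 : G) : G ⧸ Nz B) = (y : G ⧸ Nz B)
      rw [QuotientGroup.eq]
      have e2 : (x * a * 1)⁻¹ * y = b := by
        have : y = x * (a * b) := by rw [← e]; group
        rw [this]; group
      rw [e2]
      exact Subgroup.le_normalizer hb
  haveI : MulAction.IsPretransitive G ((G ⧸ Nz A) × (G ⧸ Nz B)) := by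
    constructor
    rintro ⟨p, q⟩ ⟨p', q'⟩
    induction p using QuotientGroup.induction_on with
    | _ x =>
    induction q using QuotientGroup.induction_on with
    | _ y =>
    induction p' using QuotientGroup.induction_on with
    | _ x' =>
    induction q' using QuotientGroup.induction_on with
    | _ y' =>
    obtain ⟨g₁, hg₁⟩ := key x y
    obtain ⟨g₂, hg₂⟩ := key x' y'
    refine ⟨g₂ * g₁⁻¹, ?_⟩
    rw [← hg₁, ← hg₂, smul_smul]
    simp
  have hP := burnside_trans (G := G) (X := (G ⧸ Nz A) × (G ⧸ Nz B))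
  simp only [card_fixedBy_prod] at hP
  set f : G → ℕ := fun g => Nat.card (MulAction.fixedBy (G ⧸ Nz A) g) with hf
  set f' : G → ℕ := fun g => Nat.card (MulAction.fixedBy (G ⧸ Nz B) g) with hf'
  have hsum : ∑ g : G, (((f g : ℕ) : ℤ) - 1) * (((f' g : ℕ) : ℤ) - 1) = 0 := by
    have e1 : ∑ g : G, (((f g : ℕ) : ℤ) - 1) * (((f' g : ℕ) : ℤ) - 1) =
        ((∑ g : G, f g * f' g : ℕ) : ℤ) - ((∑ g : G, f g : ℕ) : ℤ) - ((∑ g : G, f' g : ℕ) : ℤ)
          + ((∑ _g : G, 1 : ℕ) : ℤ) := by
      push_cast
      rw [← Finset.sum_sub_distrib, ← Finset.sum_sub_distrib, ← Finset.sum_add_distrib]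
      apply Finset.sum_congr rfl
      intro g _
      ring
    rw [e1, hP, hA, hB]
    simp [Nat.card_eq_fintype_card]
  -- nonnegativity away from the identity
  have hnonneg : ∀ g : G, g ≠ 1 → 0 ≤ (((f g : ℕ) : ℤ) - 1) * (((f' g : ℕ) : ℤ) - 1) := by
    intro g hg
    have hgo : g ^ (Nat.card A * Nat.card B) = 1 := by
      rw [← h.card_eq]; exact pow_card_eq_one'
    obtain ⟨u, v, hu, hv, e, hu1, hv1⟩ := exists_split h.cop hgo
    have huc : (orderOf u).Coprime (Nat.card B) :=
      Nat.Coprime.coprime_dvd_left (orderOf_dvd_of_pow_eq_one hu1) h.cop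
    have hvc : (orderOf v).Coprime (Nat.card A) :=
      Nat.Coprime.coprime_dvd_left (orderOf_dvd_of_pow_eq_one hv1) h.cop.symm
    have hmono : ∀ (X : Type _) [MulAction G X] [Finite X] (w : G), w ∈ Subgroup.zpowers g →
        Nat.card (MulAction.fixedBy X g) ≤ Nat.card (MulAction.fixedBy X w) := by
      rintro X _ _ w ⟨j, rfl⟩
      exact Nat.card_mono (Set.toFinite _) (MulAction.fixedBy_subset_fixedBy_zpow X g j)
    by_cases hu' : u = 1
    · have hgv : g = v := by rw [e, hu', one_mul]
      have hv2 : v ≠ 1 := by rw [← hgv]; exact hg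
      have : f' g = 1 := by
        simp only [hf']
        rw [hgv]
        exact h.swap.fixed_card_eq_one hv2 hvc
      rw [this]; simp
    by_cases hv' : v = 1
    · have hgu : g = u := by rw [e, hv', mul_one]
      have : f g = 1 := by
        simp only [hf]
        rw [hgu]
        exact h.fixed_card_eq_one hu' huc
      rw [this]; simp
    have h1 : f g ≤ 1 := by
      have := hmono (G ⧸ Nz A) u hu
      rwa [h.fixed_card_eq_one hu' huc] at this
    have h2 : f' g ≤ 1 := by
      have := hmono (G ⧸ Nz B) v hv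
      rwa [h.swap.fixed_card_eq_one hv' hvc] at this
    have h3 : ((f g : ℕ) : ℤ) - 1 ≤ 0 := by
      have : ((f g : ℕ) : ℤ) ≤ 1 := by exact_mod_cast h1
      linarith
    have h4 : ((f' g : ℕ) : ℤ) - 1 ≤ 0 := by
      have : ((f' g : ℕ) : ℤ) ≤ 1 := by exact_mod_cast h2
      linarith
    exact mul_nonneg_of_nonpos_of_nonpos h3 h4
  -- the identity term
  have hone : ∀ (C : Subgroup G), Nat.card (MulAction.fixedBy (G ⧸ C) (1 : G)) = C.index := by
    intro C
    rw [MulAction.fixedBy_one_eq_univ, Nat.card_coe_set_eq, Set.ncard_univ, Subgroup.index]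
  have hpos : 0 < (((f 1 : ℕ) : ℤ) - 1) * (((f' 1 : ℕ) : ℤ) - 1) := by
    have h1 : f 1 = (Nz A).index := hone _
    have h2 : f' 1 = (Nz B).index := hone _
    have hA1 : (Nz A).index ≠ 1 := by
      rw [Ne, Subgroup.index_eq_one]
      exact h.nz_ne_top h.A_ne_bot h.A_ne_top
    have hB1 : (Nz B).index ≠ 1 := by
      rw [Ne, Subgroup.index_eq_one]
      exact h.nz_ne_top h.B_ne_bot h.B_ne_top
    have hA0 : (Nz A).index ≠ 0 := Subgroup.index_ne_zero_of_finite
    have hB0 : (Nz B).index ≠ 0 := Subgroup.index_ne_zero_of_finite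
    rw [h1, h2]
    apply mul_pos
    · have : (2 : ℤ) ≤ ((Nz A).index : ℤ) := by
        have : 2 ≤ (Nz A).index := by omega
        exact_mod_cast this
      linarith
    · have : (2 : ℤ) ≤ ((Nz B).index : ℤ) := by
        have : 2 ≤ (Nz B).index := by omega
        exact_mod_cast this
      linarith
  have hle := Finset.single_le_sum (f := fun g : G => (((f g : ℕ) : ℤ) - 1) * (((f' g : ℕ) : ℤ) - 1))
    (s := Finset.univ) (a := (1 : G)) (by
      intro g _
      by_cases hg : g = 1
      · rw [hg]; exact hpos.le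
      · exact hnonneg g hg) (Finset.mem_univ _)
  rw [hsum] at hle
  exact absurd hle (not_le.mpr hpos)

end KWData

end Cfsg.Agent.Lib.KW
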