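import Cfsg.Agent.Lib.KW.Count
import Cfsg.Agent.Lib.Char.Burnside2
import Cfsg.Agent.Lib.Basic.SylowUtil

set_option autoImplicit false

/-!
# The Kegel-Wielandt theorem

A finite group `G = AB` with `A`, `B` nilpotent subgroups is solvable: reduction of a minimal
counterexample to the case `KWData`.
-/

namespace Cfsg.Agent.Lib.KW

open Subgroup Cfsg.Agent.Lib.Solvable.Carter
open scoped Pointwise

universe u

section aux

variable {G : Type*} [Group G] [Finite G]

theorem sylow_map_eq_pPart {C : Subgroup G} (hC : Group.IsNilpotent C) {s : ℕ} [Fact s.Prime]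
    (P : Sylow s C) : (P : Subgroup C).map C.subtype = pPart s C := by
  apply le_antisymm
  · exact le_pPart hC (by rintro _ ⟨y, -, rfl⟩; exact y.2) (P.2.map _)
  · exact Subgroup.map_mono (Cfsg.Agent.Lib.Basic.PCore.pCore_le_sylow P)

/-- A product formula for conjugates. -/
theorem coe_cj_eq_mul {D E R : Subgroup G} (hR : (R : Set G) = (D : Set G) * (E : Set G)) {a b : G}
    (ha : a ∈ Nz D) (hb : b ∈ Nz E) :
    (cj a R : Set G) = (D : Set G) * (MulAut.conj (a * b) • E : Subgroup G) := by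
  ext y
  rw [SetLike.mem_coe, mem_cj, ← SetLike.mem_coe, hR]
  simp only [Set.mem_mul, SetLike.mem_coe]
  constructor
  · rintro ⟨d, hd, w, hw, e⟩
    refine ⟨a * d * a⁻¹, conj_mem_nz ha hd, a * w * a⁻¹, ?_, ?_⟩
    · rw [mem_conj_smul]
      have e1 : (a * b)⁻¹ * (a * w * a⁻¹) * (a * b) = b⁻¹ * w * b := by group
      rw [e1]
      exact inv_conj_mem_nz hb hw
    · have : y = a * (a⁻¹ * y * a) * a⁻¹ := by group
      rw [this, ← e]; group
  · rintro ⟨d, hd, w, hw, rfl⟩
    rw [mem_conj_smul] at hw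
    refine ⟨a⁻¹ * d * a, inv_conj_mem_nz ha hd, a⁻¹ * w * a, ?_, by group⟩
    have e1 := conj_mem_nz hb hw
    have e2 : b * ((a * b)⁻¹ * w * (a * b)) * b⁻¹ = a⁻¹ * w * a := by group
    rwa [e2] at e1

/-- Kegel's lemma inside a subgroup `W`. -/
theorem kegel_in {W D E : Subgroup G} (hDW : D ≤ W) (hEW : E ≤ W) (hD : D ≠ ⊥) (hE : E ≠ ⊥)
    (h : ∀ x ∈ W, ∃ S : Subgroup G, S ≤ W ∧ S ≠ W ∧
      (S : Set G) = (D : Set G) * (MulAut.conj x • E : Subgroup G)) :
    ∃ N : Subgroup G, N ≤ W ∧ W ≤ Nz N ∧ N ≠ W ∧ (D ≤ N ∨ E ≤ N) := by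
  have hne : ∀ {Y : Subgroup G}, Y ≤ W → Y ≠ ⊥ → Y.subgroupOf W ≠ ⊥ := by
    intro Y hY hb he
    apply hb
    rw [eq_bot_iff]
    intro y hy
    have h1 : (⟨y, hY hy⟩ : W) ∈ Y.subgroupOf W := Subgroup.mem_subgroupOf.mpr hy
    rw [he, Subgroup.mem_bot] at h1
    exact congrArg Subtype.val h1
  obtain ⟨N, hN, hNt, hor⟩ := Cfsg.Agent.S0566.result (D.subgroupOf W) (E.subgroupOf W)
    (hne hDW hD) (hne hEW hE) (by
    intro x
    obtain ⟨S, hSW, hSne, hS⟩ := h x x.2
    refine ⟨S.subgroupOf W, ?_, ?_⟩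
    · intro ht
      apply hSne
      apply le_antisymm hSW
      intro y hy
      have : (⟨y, hy⟩ : W) ∈ S.subgroupOf W := by rw [ht]; trivial
      exact Subgroup.mem_subgroupOf.mp this
    · ext y
      have h1 : y ∈ ((S.subgroupOf W : Subgroup W) : Set W) ↔ (y : G) ∈ (S : Set G) := by
        simp [Subgroup.mem_subgroupOf]
      rw [h1, hS]
      simp only [Set.mem_mul, SetLike.mem_coe]
      constructor
      · rintro ⟨d, hd, e, he, e0⟩
        have hdW := hDW hd
        have heW : e ∈ W := by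
          have : e = d⁻¹ * y := by rw [← e0]; group
          rw [this]
          exact W.mul_mem (W.inv_mem hdW) y.2
        refine ⟨⟨d, hdW⟩, Subgroup.mem_subgroupOf.mpr hd, ⟨e, heW⟩, ?_, Subtype.ext e0⟩
        rw [mem_conj_smul] at he ⊢
        exact Subgroup.mem_subgroupOf.mpr he
      · rintro ⟨d, hd, e, he, rfl⟩
        refine ⟨d, Subgroup.mem_subgroupOf.mp hd, e, ?_, rfl⟩
        rw [mem_conj_smul] at he ⊢
        exact Subgroup.mem_subgroupOf.mp he)
  refine ⟨N.map W.subtype, ?_, ?_, ?_, ?_⟩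
  · rintro _ ⟨y, -, rfl⟩; exact y.2
  · intro s hs
    apply mem_nz_of_conj
    rintro _ ⟨y, hy, rfl⟩
    refine ⟨⟨s, hs⟩ * y * ⟨s, hs⟩⁻¹, hN.conj_mem y hy _, ?_⟩
    simp
  · intro he
    apply hNt
    rw [eq_top_iff]
    intro y _
    have : (y : G) ∈ N.map W.subtype := by rw [he]; exact y.2
    obtain ⟨z, hz, e⟩ := this
    have : z = y := Subtype.ext e
    rwa [← this]
  · rcases hor with h1 | h1
    · left
      intro d hd
      exact ⟨⟨d, hDW hd⟩, h1 (Subgroup.mem_subgroupOf.mpr hd), rfl⟩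
    · right
      intro d hd
      exact ⟨⟨d, hEW hd⟩, h1 (Subgroup.mem_subgroupOf.mpr hd), rfl⟩

/-- The key step of the reduction to simple groups. -/
theorem aux_core {M W N C Cs : Subgroup G} (hMn : M.Normal) (hWn : W.Normal) (hMW : M ≤ W)
    (hNW : N ≤ W) (hWN : W ≤ Nz N) (hNne : N ≠ W) (hCsN : Cs ≤ N) (hCsn : C ≤ Nz Cs)
    (hfac : ∀ g : G, ∃ c ∈ C, ∃ l ∈ M, g = c * l) (hW : W ≤ Cs ⊔ M)
    (hmin : ∀ L : Subgroup G, L.Normal → L ≠ ⊥ → M ≤ L) (hCsne : Cs ≠ ⊥) : False := by
  set L : Subgroup G := ⨅ a : C, cj (a : G) N with hL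
  have hmemL : ∀ {x : G}, x ∈ L ↔ ∀ a ∈ C, a⁻¹ * x * a ∈ N := by
    intro x
    rw [hL, Subgroup.mem_iInf]
    constructor
    · intro h a ha
      exact mem_cj.mp (h ⟨a, ha⟩)
    · intro h a
      exact mem_cj.mpr (h a a.2)
  have hLn : L.Normal := by
    constructor
    intro x hx g
    rw [hmemL] at hx ⊢
    intro a ha
    obtain ⟨c, hc, l, hl, e⟩ := hfac (a⁻¹ * g)
    have h1 : c * l * c⁻¹ ∈ W := hWn.conj_mem l (hMW hl) c
    have h2 := hx c⁻¹ (Subgroup.inv_mem _ hc)
    have h3 := conj_mem_nz (hWN h1) h2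
    have e1 : a⁻¹ * (g * x * g⁻¹) * a = (a⁻¹ * g) * x * (a⁻¹ * g)⁻¹ := by group
    rw [e1, e]
    have e2 : c * l * c⁻¹ * (c⁻¹⁻¹ * x * c⁻¹) * (c * l * c⁻¹)⁻¹ = c * l * x * (c * l)⁻¹ := by group
    rwa [e2] at h3
  have hCsL : Cs ≤ L := by
    intro d hd
    rw [hmemL]
    intro a ha
    exact hCsN (inv_conj_mem_nz (hCsn ha) hd)
  have hLne : L ≠ ⊥ := by
    intro hb
    rw [hb] at hCsL
    exact hCsne (le_bot_iff.mp hCsL)
  have hML := hmin L hLn hLne
  have hLN : L ≤ N := by
    intro x hx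
    have := (hmemL.mp hx) 1 (Subgroup.one_mem _)
    simpa using this
  apply hNne
  apply le_antisymm hNW
  exact hW.trans ((sup_le hCsL hML).trans hLN)

/-- The preimage of the `s`-core of `G/M`. -/
noncomputable def wOf (s : ℕ) (M : Subgroup G) [M.Normal] : Subgroup G :=
  (Cfsg.pCore s (G ⧸ M)).comap (QuotientGroup.mk' M)

instance wOf_normal (s : ℕ) (M : Subgroup G) [M.Normal] : (wOf s M).Normal :=
  Subgroup.Normal.comap inferInstance _

theorem le_wOf (s : ℕ) (M : Subgroup G) [M.Normal] : M ≤ wOf s M := by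
  intro x hx
  have : QuotientGroup.mk' M x = 1 := (QuotientGroup.eq_one_iff x).mpr hx
  rw [wOf, Subgroup.mem_comap, this]
  exact Subgroup.one_mem _

theorem pPart_le_wOf {s : ℕ} [hs : Fact s.Prime] {M C : Subgroup G} [M.Normal]
    (hnil : Group.IsNilpotent (G ⧸ M)) : pPart s C ≤ wOf s M := by
  intro x hx
  obtain ⟨k, hk⟩ := order_of_isPGroup (isPGroup_pPart C) hx
  have h1 : orderOf (QuotientGroup.mk' M x) ∣ s ^ k := hk ▸ orderOf_map_dvd _ x
  obtain ⟨j, -, hj⟩ := (Nat.dvd_prime_pow hs.out).1 h1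
  rw [wOf, Subgroup.mem_comap]
  refine Cfsg.Agent.Lib.Basic.PCore.mem_pCore_of_normal_nilpotent (N := ⊤) inferInstance ?_
    (Subgroup.mem_top _) hs.out hj
  haveI := hnil
  exact Group.nilpotent_of_mulEquiv Subgroup.topEquiv.symm

theorem wOf_le_sup {s : ℕ} [hs : Fact s.Prime] {M C : Subgroup G} [M.Normal]
    (hnil : Group.IsNilpotent (G ⧸ M)) (hC : Group.IsNilpotent C)
    (hfac : ∀ g : G, ∃ c ∈ C, ∃ l ∈ M, g = c * l) : wOf s M ≤ pPart s C ⊔ M := by
  intro w hw
  obtain ⟨c, hc, l, hl, rfl⟩ := hfac w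
  obtain ⟨c₁, hc₁, c₂, hc₂, rfl⟩ := exists_parts (p := s) hC hc
  have hmk : QuotientGroup.mk' M l = 1 := (QuotientGroup.eq_one_iff l).mpr hl
  have h1 : QuotientGroup.mk' M c₁ ∈ Cfsg.pCore s (G ⧸ M) := pPart_le_wOf hnil hc₁
  have h2 : QuotientGroup.mk' M c₂ ∈ Cfsg.pCore s (G ⧸ M) := by
    have h3 : QuotientGroup.mk' M (c₁ * c₂ * l) ∈ Cfsg.pCore s (G ⧸ M) := hw
    rw [map_mul, map_mul, hmk, mul_one] at h3
    have := (Cfsg.pCore s (G ⧸ M)).mul_mem ((Cfsg.pCore s (G ⧸ M)).inv_mem h1) h3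
    simpa using this
  have h4 : QuotientGroup.mk' M c₂ = 1 := by
    obtain ⟨k, hk⟩ := order_of_isPGroup (Cfsg.Agent.Lib.Basic.PCore.pCore_isPGroup s) h2
    have h5 : orderOf (QuotientGroup.mk' M c₂) ∣ orderOf c₂ := orderOf_map_dvd _ c₂
    have h6 : (orderOf (QuotientGroup.mk' M c₂)).Coprime s :=
      Nat.Coprime.coprime_dvd_left h5 (order_coprime_of_mem_ppPart hC hc₂)
    rw [hk] at h6
    have h7 : k = 0 := by
      by_contra hk0
      have := Nat.Coprime.coprime_dvd_left (dvd_pow_self s hk0) h6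
      exact hs.out.one_lt.ne' (Nat.coprime_self s |>.mp this)
    rw [h7, pow_zero] at hk
    exact orderOf_eq_one_iff.mp hk
  have h8 : c₂ ∈ M := (QuotientGroup.eq_one_iff c₂).mp h4
  have e : c₁ * c₂ * l = c₁ * (c₂ * l) := by group
  rw [e]
  exact Subgroup.mul_mem_sup hc₁ (M.mul_mem h8 hl)

end aux

/-- **Kegel-Wielandt**: the product of two nilpotent subgroups is solvable. -/
theorem isSolvable_of_product : ∀ (n : ℕ) (G : Type u) [Group G] [Finite G] (A B : Subgroup G),
    Nat.card G = n → Group.IsNilpotent A → Group.IsNilpotent B →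
    (∀ g : G, ∃ a ∈ A, ∃ b ∈ B, g = a * b) → Group.IsSolvable G := by
  intro n
  induction n using Nat.strong_induction_on with
  | _ n ih =>
  intro G _ _ A B hn hA hB hAB
  by_contra hns
  have hBA : ∀ g : G, ∃ b ∈ B, ∃ a ∈ A, g = b * a :=
    Cfsg.Agent.Lib.Solvable.Product.exists_mul_of_inv hAB
  -- induction hypotheses
  have ihS : ∀ S : Subgroup G, S ≠ ⊤ → ∀ A₁ B₁ : Subgroup G, A₁ ≤ S → B₁ ≤ S →
      Group.IsNilpotent A₁ → Group.IsNilpotent B₁ →
      (∀ g ∈ S, ∃ a ∈ A₁, ∃ b ∈ B₁, g = a * b) → Group.IsSolvable S := by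
    intro S hS A₁ B₁ h1 h2 h3 h4 h5
    refine ih (Nat.card S) ?_ S (A₁.subgroupOf S) (B₁.subgroupOf S) rfl ?_ ?_ ?_
    · rw [← hn]
      have h6 := Cfsg.Agent.Lib.Transfer.Frobenius.card_lt_of_lt (lt_top_iff_ne_top.mpr hS)
      simpa using h6
    · haveI := h3
      exact Group.nilpotent_of_mulEquiv (Subgroup.subgroupOfEquivOfLe h1).symm
    · haveI := h4
      exact Group.nilpotent_of_mulEquiv (Subgroup.subgroupOfEquivOfLe h2).symm
    · rintro ⟨g, hg⟩
      obtain ⟨a, ha, b, hb, e⟩ := h5 g hg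
      exact ⟨⟨a, h1 ha⟩, Subgroup.mem_subgroupOf.mpr ha, ⟨b, h2 hb⟩,
        Subgroup.mem_subgroupOf.mpr hb, Subtype.ext e⟩
  have ihQ : ∀ (N : Subgroup G) [N.Normal], N ≠ ⊥ → Group.IsSolvable (G ⧸ N) := by
    intro N _ hNb
    refine ih (Nat.card (G ⧸ N)) ?_ (G ⧸ N) (A.map (QuotientGroup.mk' N)) (B.map (QuotientGroup.mk' N))
      rfl (Cfsg.Agent.Lib.Basic.PCore.isNilpotent_map hA _)
      (Cfsg.Agent.Lib.Basic.PCore.isNilpotent_map hB _) ?_
    · rw [← hn]
      have h1 := Subgroup.card_eq_card_quotient_mul_card_subgroup N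
      have h2 : 2 ≤ Nat.card N := by
        have h3 : Nat.card N ≠ 1 := fun e => hNb (Subgroup.card_eq_one.mp e)
        have h4 : 0 < Nat.card N := Nat.card_pos
        omega
      have h5 : 0 < Nat.card (G ⧸ N) := Nat.card_pos
      rw [h1]
      nlinarith
    · intro g
      induction g using QuotientGroup.induction_on with
      | _ g =>
      obtain ⟨a, ha, b, hb, rfl⟩ := hAB g
      exact ⟨_, ⟨a, ha, rfl⟩, _, ⟨b, hb, rfl⟩, rfl⟩
  have hsolvN : ∀ L : Subgroup G, L.Normal → L ≠ ⊥ → Group.IsSolvable L → False := by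
    intro L hL hb hsolv
    apply hns
    haveI := hL
    haveI := ihQ L hb
    exact Group.isSolvable_of_ker_le_range L.subtype (QuotientGroup.mk' L) (by
      rw [QuotientGroup.ker_mk', Subgroup.range_subtype])
  -- supplements
  have hsupp : ∀ C D : Subgroup G, Group.IsNilpotent C → Group.IsNilpotent D →
      (∀ g : G, ∃ c ∈ C, ∃ d ∈ D, g = c * d) → ∀ L : Subgroup G, L.Normal → L ≠ ⊥ →
      ∀ g : G, ∃ c ∈ C, ∃ l ∈ L, g = c * l := by
    intro C D hC hD hfac L hL hb g
    haveI := hL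
    have hS : C ⊔ L = ⊤ := by
      by_contra hne
      have hsolv := ihS (C ⊔ L) hne C (D ⊓ (C ⊔ L)) le_sup_left inf_le_right hC
        (isNilpotent_of_le' inf_le_left hD) (by
          intro g hg
          obtain ⟨c, hc, d, hd, rfl⟩ := hfac g
          refine ⟨c, hc, d, ⟨hd, ?_⟩, rfl⟩
          have := (C ⊔ L).mul_mem ((C ⊔ L).inv_mem (le_sup_left (b := L) hc)) hg
          simpa using this)
      exact hsolvN L hL hb (isSolvable_of_le' le_sup_right hsolv)
    have hg : g ∈ ((C ⊔ L : Subgroup G) : Set G) := by rw [hS]; trivial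
    rw [Subgroup.mul_normal C L] at hg
    obtain ⟨c, hc, l, hl, e⟩ := Set.mem_mul.mp hg
    exact ⟨c, hc, l, hl, e.symm⟩
  -- `G` is simple
  have hsimple : ∀ N : Subgroup G, N.Normal → N = ⊥ ∨ N = ⊤ := by
    intro N₀ hN₀
    by_contra hcon
    push_neg at hcon
    obtain ⟨hN₀b, hN₀t⟩ := hcon
    -- a minimal normal subgroup
    obtain ⟨M, ⟨hMn, hMb, hMN⟩, hMmin⟩ := WellFounded.has_min (wellFounded_lt (α := Subgroup G))
      {L | L.Normal ∧ L ≠ ⊥ ∧ L ≤ N₀} ⟨N₀, hN₀, hN₀b, le_rfl⟩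
    haveI := hMn
    have hMt : M ≠ ⊤ := by
      rintro rfl
      exact hN₀t (top_le_iff.mp hMN)
    have hmin : ∀ L : Subgroup G, L.Normal → L ≠ ⊥ → M ≤ L := by
      intro L hL hLb
      haveI := hL
      by_cases hi : L ⊓ M = ⊥
      · exfalso
        apply hns
        haveI := ihQ L hLb
        haveI := ihQ M hMb
        refine Group.isSolvable_of_isSolvable_injective
          (f := (QuotientGroup.mk' L).prod (QuotientGroup.mk' M)) ?_
        rw [injective_iff_map_eq_one]
        intro x hx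
        have h1 : QuotientGroup.mk' L x = 1 := congrArg Prod.fst hx
        have h2 : QuotientGroup.mk' M x = 1 := congrArg Prod.snd hx
        have h3 : x ∈ L ⊓ M := ⟨(QuotientGroup.eq_one_iff x).mp h1, (QuotientGroup.eq_one_iff x).mp h2⟩
        rw [hi, Subgroup.mem_bot] at h3
        exact h3
      · have hle : L ⊓ M ≤ M := inf_le_right
        by_contra hnl
        have hlt : L ⊓ M < M := lt_of_le_of_ne hle (fun e => hnl (e ▸ inf_le_left))
        exact hMmin (L ⊓ M) ⟨inferInstance, hi, hle.trans hMN⟩ hlt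
    have hfA := hsupp A B hA hB hAB M hMn hMb
    have hfB := hsupp B A hB hA hBA M hMn hMb
    have hnilQ : Group.IsNilpotent (G ⧸ M) := by
      haveI := hA
      refine Group.nilpotent_of_surjective ((QuotientGroup.mk' M).comp A.subtype) ?_
      intro x
      induction x using QuotientGroup.induction_on with
      | _ g =>
      obtain ⟨a, ha, l, hl, rfl⟩ := hfA g
      refine ⟨⟨a, ha⟩, ?_⟩
      have hmk : QuotientGroup.mk' M l = 1 := (QuotientGroup.eq_one_iff l).mpr hl
      show QuotientGroup.mk' M a = QuotientGroup.mk' M (a * l)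
      rw [map_mul, hmk, mul_one]
    -- a prime dividing the index of `M`
    have hQ1 : Nat.card (G ⧸ M) ≠ 1 := by
      intro e
      apply hMt
      rw [← Subgroup.index_eq_one, Subgroup.index]
      exact e
    obtain ⟨s, hs, hsQ⟩ := Nat.exists_prime_and_dvd hQ1
    haveI : Fact s.Prime := ⟨hs⟩
    have hsurj : ∀ C : Subgroup G, (∀ g : G, ∃ c ∈ C, ∃ l ∈ M, g = c * l) → s ∣ Nat.card C := by
      intro C hC
      refine hsQ.trans (Subgroup.card_dvd_of_surjective ((QuotientGroup.mk' M).comp C.subtype) ?_)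
      intro x
      induction x using QuotientGroup.induction_on with
      | _ g =>
      obtain ⟨a, ha, l, hl, rfl⟩ := hC g
      refine ⟨⟨a, ha⟩, ?_⟩
      have hmk : QuotientGroup.mk' M l = 1 := (QuotientGroup.eq_one_iff l).mpr hl
      show QuotientGroup.mk' M a = QuotientGroup.mk' M (a * l)
      rw [map_mul, hmk, mul_one]
    have hAs : pPart s A ≠ ⊥ := pPart_ne_bot hA (hsurj A hfA)
    have hBs : pPart s B ≠ ⊥ := pPart_ne_bot hB (hsurj B hfB)
    -- the Sylow product
    obtain ⟨P, Q, R, hR⟩ := Cfsg.Agent.Lib.Solvable.Product.exists_sylow_mul A B hAB s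
    rw [sylow_map_eq_pPart hA P, sylow_map_eq_pPart hB Q] at hR
    set W := wOf s M with hW
    have hAW : pPart s A ≤ W := pPart_le_wOf hnilQ
    have hBW : pPart s B ≤ W := pPart_le_wOf hnilQ
    have hMW : M ≤ W := le_wOf s M
    have hRW : (R : Subgroup G) ≤ W := by
      intro x hx
      have hx' : x ∈ ((R : Subgroup G) : Set G) := hx
      rw [hR] at hx'
      obtain ⟨d, hd, e, he, rfl⟩ := Set.mem_mul.mp hx'
      exact W.mul_mem (hAW hd) (hBW he)
    obtain ⟨N, hNW, hWN, hNne, hor⟩ := kegel_in hAW hBW hAs hBs (by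
      intro x hx
      obtain ⟨a, ha, b, hb, rfl⟩ := hAB x
      refine ⟨cj a (R : Subgroup G), ?_, ?_, ?_⟩
      · rintro _ ⟨y, hy, rfl⟩
        have : (MulAut.conj a).toMonoidHom y = a * y * a⁻¹ := by simp [MulAut.conj_apply]
        rw [this]
        exact (inferInstance : W.Normal).conj_mem y (hRW hy) a
      · -- `W` is not an `s`-group
        intro he
        have hps : IsPGroup s W := by
          rw [← he]
          exact isPGroup_cj R.2
        have hsol : Group.IsSolvable M := by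
          have hpM : IsPGroup s M := hps.to_le hMW
          haveI := hpM.isNilpotent
          infer_instance
        exact hsolvN M hMn hMb hsol
      · exact coe_cj_eq_mul hR (le_nz_pPart hA ha) (le_nz_pPart hB hb))
    rcases hor with hN | hN
    · exact aux_core hMn inferInstance hMW hNW hWN hNne hN (le_nz_pPart hA) hfA
        (wOf_le_sup hnilQ hA hfA) hmin hAs
    · exact aux_core hMn inferInstance hMW hNW hWN hNne hN (le_nz_pPart hB) hfB
        (wOf_le_sup hnilQ hB hfB) hmin hBs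
  -- coprime orders
  have hnotp : ∀ (s : ℕ) [Fact s.Prime] (R : Subgroup G), IsPGroup s R → R ≠ ⊤ := by
    rintro s _ R hR rfl
    apply hns
    have hp : IsPGroup s G := (IsPGroup.of_equiv hR Subgroup.topEquiv)
    haveI := hp.isNilpotent
    infer_instance
  have hcop : (Nat.card A).Coprime (Nat.card B) := by
    by_contra hnc
    obtain ⟨s, hs, hd⟩ := Nat.Prime.not_coprime_iff_dvd.mp hnc
    haveI : Fact s.Prime := ⟨hs⟩
    have hAs : pPart s A ≠ ⊥ := pPart_ne_bot hA hd.1
    have hBs : pPart s B ≠ ⊥ := pPart_ne_bot hB hd.2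
    obtain ⟨P, Q, R, hR⟩ := Cfsg.Agent.Lib.Solvable.Product.exists_sylow_mul A B hAB s
    rw [sylow_map_eq_pPart hA P, sylow_map_eq_pPart hB Q] at hR
    obtain ⟨N, hN, hNt, hor⟩ := Cfsg.Agent.S0566.result (pPart s A) (pPart s B) hAs hBs (by
      intro x
      obtain ⟨a, ha, b, hb, rfl⟩ := hAB x
      refine ⟨cj a (R : Subgroup G), hnotp s _ (isPGroup_cj R.2), ?_⟩
      exact coe_cj_eq_mul hR (le_nz_pPart hA ha) (le_nz_pPart hB hb))
    rcases hsimple N hN with h3 | h3
    · rcases hor with h4 | h4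
      · rw [h3] at h4; exact hAs (le_bot_iff.mp h4)
      · rw [h3] at h4; exact hBs (le_bot_iff.mp h4)
    · exact hNt h3
  haveI hSimple : IsSimpleGroup G := by
    haveI : Nontrivial G := by
      by_contra hnt
      rw [not_nontrivial_iff_subsingleton] at hnt
      apply hns
      infer_instance
    exact { eq_bot_or_eq_top_of_normal := hsimple }
  -- at least two primes
  have htwo : ∀ C D : Subgroup G, Group.IsNilpotent C → Group.IsNilpotent D →
      (∀ g : G, ∃ c ∈ C, ∃ d ∈ D, g = c * d) → (Nat.card C).Coprime (Nat.card D) →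
      ∃ p q : ℕ, p.Prime ∧ q.Prime ∧ p ≠ q ∧ p ∣ Nat.card C ∧ q ∣ Nat.card C := by
    intro C D hC hD hfac hc
    have hne : ∀ C D : Subgroup G, Group.IsNilpotent C → Group.IsNilpotent D →
        (∀ g : G, ∃ c ∈ C, ∃ d ∈ D, g = c * d) → Nat.card C ≠ 1 := by
      intro C D hC hD hfac h1
      have hb : C = ⊥ := Subgroup.card_eq_one.mp h1
      have ht : D = ⊤ := by
        rw [eq_top_iff]
        intro g _
        obtain ⟨c, hc, d, hd, rfl⟩ := hfac g
        rw [hb, Subgroup.mem_bot] at hc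
        rwa [hc, one_mul]
      apply hns
      rw [ht] at hD
      haveI : Group.IsNilpotent G := Group.nilpotent_of_mulEquiv (Subgroup.topEquiv (G := G))
      infer_instance
    obtain ⟨p, hp, hpd⟩ := Nat.exists_prime_and_dvd (hne C D hC hD hfac)
    by_contra hno
    push_neg at hno
    have huniq : ∀ q : ℕ, q.Prime → q ∣ Nat.card C → q = p := by
      intro q hq hqd
      by_contra hqp
      exact hno p q hp hq (fun e => hqp e.symm) hpd hqd
    obtain ⟨k, hCp⟩ : ∃ k, Nat.card C = p ^ k :=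
      ⟨_, Nat.eq_prime_pow_of_unique_prime_dvd (Nat.card_pos (α := C)).ne'
        (fun {q} hq hqd => huniq q hq hqd)⟩
    -- a central element of `D`
    have hfac' : ∀ g : G, ∃ d ∈ D, ∃ c ∈ C, g = d * c :=
      Cfsg.Agent.Lib.Solvable.Product.exists_mul_of_inv hfac
    have hD1 := hne D C hD hC hfac'
    haveI := hD
    haveI : Nontrivial D := by
      rw [Subgroup.nontrivial_iff_ne_bot]
      intro hb
      apply hD1
      rw [hb, Subgroup.card_bot]
    haveI : Nontrivial (Subgroup.center D) :=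
      (Subgroup.nontrivial_iff_ne_bot _).2 (Group.IsNilpotent.center_ne_bot _)
    obtain ⟨w', hw1⟩ := exists_ne (1 : Subgroup.center D)
    have hwne : ((w' : D) : G) ≠ 1 := by
      intro e
      apply hw1
      apply Subtype.ext
      apply Subtype.ext
      exact e
    have hDc : D ≤ Subgroup.centralizer ({((w' : D) : G)} : Set G) := by
      intro d hd
      rw [Subgroup.mem_centralizer_iff]
      rintro _ rfl
      have := Subgroup.mem_center_iff.mp w'.2 ⟨d, hd⟩
      exact (congrArg Subtype.val this).symm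
    have hindex : D.index = Nat.card C := by
      have h1 := Cfsg.Agent.Lib.Solvable.Product.card_mul_card_inf hfac
      have h2 : C ⊓ D = ⊥ := by
        rw [eq_bot_iff]
        intro x hx
        have h3 : orderOf x ∣ Nat.card C := Subgroup.orderOf_dvd_natCard C hx.1
        have h4 : orderOf x ∣ Nat.card D := Subgroup.orderOf_dvd_natCard D hx.2
        exact orderOf_eq_one_iff.mp (Nat.eq_one_of_dvd_coprimes hc h3 h4)
      rw [h2] at h1
      have h3 := Subgroup.card_mul_index D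
      rw [Subgroup.card_bot, mul_one] at h1
      rw [h1, mul_comm (Nat.card C)] at h3
      exact Nat.eq_of_mul_eq_mul_left Nat.card_pos h3
    have hdvd : (Subgroup.centralizer ({((w' : D) : G)} : Set G)).index ∣ p ^ k := by
      rw [← hCp, ← hindex]
      exact Subgroup.index_dvd_of_le hDc
    obtain ⟨j, -, hj⟩ := (Nat.dvd_prime_pow hp).1 hdvd
    have hpr := Cfsg.Agent.Lib.Char.Burnside2.prime_card_of_simple_of_prime_power_class p j hp _ hwne hj
    apply hns
    haveI : Fact (Nat.card G).Prime := ⟨hpr⟩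
    haveI := isCyclic_of_prime_card (α := G) rfl
    letI : CommGroup G := IsCyclic.commGroup
    infer_instance
  exact KWData.false_of (A := A) (B := B)
    ⟨hA, hB, hcop, hAB, hsimple, ihS, htwo A B hA hB hAB hcop, htwo B A hB hA hBA hcop.symm⟩

end Cfsg.Agent.Lib.KW
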