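import Cfsg.Agent.Lib.KW.Core
import Cfsg.Agent.Lib.Coprime.InvSylow

set_option autoImplicit false

/-!
# The Kegel-Wielandt theorem: trivial intersections

Fusion control by `N(B)` in the Sylow subgroups of `B`, centralizers of elements of `N_B(A)`, and the
trivial intersection property of `B`.
-/

namespace Cfsg.Agent.Lib.KW

open Subgroup Cfsg.Agent.Lib.Solvable.Carter
open scoped Pointwise

variable {G : Type*} [Group G] [Finite G]

theorem mem_of_coprime_relIndex {K C : Subgroup G} (hKC : K ≤ C) (hn : C ≤ Nz K) {u : G} (hu : u ∈ C)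
    (hc : (orderOf u).Coprime (K.relIndex C)) : u ∈ K := by
  haveI : (K.subgroupOf C).Normal := Subgroup.normal_subgroupOf_of_le_normalizer hn
  have h1 : (⟨u, hu⟩ : C) ^ (K.subgroupOf C).index ∈ K.subgroupOf C :=
    Subgroup.pow_index_mem _ _
  have h2 : u ^ K.relIndex C ∈ K := by
    have := Subgroup.mem_subgroupOf.mp h1
    simpa [Subgroup.relIndex] using this
  obtain ⟨m, hm⟩ := exists_pow_eq_self_of_coprime hc.symm
  rw [← hm]
  exact K.pow_mem h2 m

/-- Conjugation moves powers. -/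
theorem mem_zpowers_conj {P : Subgroup G} {g z : G} (hz : g * z * g⁻¹ ∈ P)
    {e : G} (he : e ∈ Subgroup.zpowers z) : g * e * g⁻¹ ∈ P := by
  obtain ⟨j, rfl⟩ := he
  have : g * (fun j : ℤ => z ^ j) j * g⁻¹ = (g * z * g⁻¹) ^ j := by
    simp only [conj_zpow]
  rw [this]
  exact P.zpow_mem hz j

namespace KWData

variable {A B : Subgroup G} (h : KWData A B)
include h

/-- A `π`-element normalizing `A` lies in `A`. -/
theorem mem_A_of_nz {w : G} (hw : w ∈ Nz A) (hc : (orderOf w).Coprime (Nat.card B)) : w ∈ A := by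
  refine mem_of_coprime_relIndex Subgroup.le_normalizer le_rfl hw ?_
  refine Nat.Coprime.coprime_dvd_right ?_ hc
  have hfac : ∀ g ∈ Nz A, ∃ b ∈ B ⊓ Nz A, ∃ a ∈ A, g = b * a := by
    intro g hg
    obtain ⟨b, hb, a, ha, rfl⟩ := h.fac_inv g
    refine ⟨b, ⟨hb, ?_⟩, a, ha, rfl⟩
    have := Subgroup.mul_mem _ hg (Subgroup.inv_mem _ (Subgroup.le_normalizer ha))
    simpa using this
  exact (relIndex_dvd_of_factor inf_le_right Subgroup.le_normalizer hfac).trans
    (Subgroup.card_dvd_of_le inf_le_left)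

/-- **F2**: `N(B)` controls fusion in the Sylow subgroups of `B`. -/
theorem f2 {E : Subgroup G} {g : G} {t : ℕ} [ht : Fact t.Prime] (hE : E ≤ pPart t B)
    (hg : ∀ e ∈ E, g * e * g⁻¹ ∈ pPart t B) : ∃ n ∈ Nz B, ∀ e ∈ E, n * e * n⁻¹ = g * e * g⁻¹ := by
  set U := ppPart t B with hU
  set C : Subgroup G := Subgroup.centralizer (cj g E : Set G) with hC
  have hUC : U ≤ C := by
    intro u hu
    rw [hC, Subgroup.mem_centralizer_iff]
    rintro _ ⟨e, he, rfl⟩
    have : (MulAut.conj g).toMonoidHom e = g * e * g⁻¹ := by simp [MulAut.conj_apply]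
    rw [this]
    exact (commute_pPart_ppPart h.nilB (hg e he) hu).eq
  have hVC : cj g U ≤ C := by
    rintro _ ⟨u, hu, rfl⟩
    rw [hC, Subgroup.mem_centralizer_iff]
    rintro _ ⟨e, he, rfl⟩
    have e1 := (commute_pPart_ppPart h.nilB (hE he) hu).eq
    have := congrArg (MulAut.conj g).toMonoidHom e1
    simpa using this
  have hnilU : Group.IsNilpotent U := isNilpotent_of_le' (ppPart_le t B) h.nilB
  have hHall : (Nat.card U).Coprime (U.relIndex C) :=
    Nat.Coprime.coprime_dvd_right (Subgroup.relIndex_dvd_index_of_le hUC) (h.swap.hallC t)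
  have hnilV : Group.IsNilpotent (cj g U) := by
    haveI := hnilU
    exact Group.nilpotent_of_mulEquiv (Subgroup.equivMapOfInjective U _ (MulAut.conj g).injective)
  obtain ⟨c, hc, hcV⟩ := wielandt_conj _ rfl hUC hVC hnilU hnilV hHall (by
    intro q _ hd
    rwa [card_cj] at hd)
  have hn : c * g ∈ Nz U := by
    apply mem_nz_of_conj
    intro u hu
    have h1 := hcV _ (conj_mem_cj (g := g) hu)
    have e : c * g * u * (c * g)⁻¹ = c * (g * u * g⁻¹) * c⁻¹ := by group
    rwa [e]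
  refine ⟨c * g, h.swap.w t hn, ?_⟩
  intro e he
  have hcomm := Subgroup.mem_centralizer_iff.mp hc (g * e * g⁻¹) (conj_mem_cj he)
  have e1 : c * g * e * (c * g)⁻¹ = c * (g * e * g⁻¹) * c⁻¹ := by group
  rw [e1, ← hcomm]
  group

/-- An element of `B` of order `t` lies in `pPart t B`. -/
theorem mem_pPart_B {z : G} {t : ℕ} [Fact t.Prime] (hz : z ∈ B) (ho : orderOf z = t) :
    z ∈ pPart t B :=
  mem_pPart_of_order h.nilB hz (k := 1) (by rw [pow_one, ho])

/-- **T**: a nontrivial central element of `B` lies only in the conjugate `B` of `B`. -/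
theorem t_lemma {z g : G} (hzB : z ∈ B) (hz : ∀ b ∈ B, Commute b z) (hz1 : z ≠ 1)
    (hg : g * z * g⁻¹ ∈ B) : g ∈ Nz B := by
  obtain ⟨t, k, ht, -, hk1, hko⟩ := exists_prime_order_pow hz1
  haveI : Fact t.Prime := ⟨ht⟩
  set z₀ := z ^ k with hz₀
  have hz₀B : z₀ ∈ B := B.pow_mem hzB k
  have hz₀c : ∀ b ∈ B, Commute b z₀ := fun b hb => (hz b hb).pow_right k
  have hgz : g * z₀ * g⁻¹ ∈ B := by
    rw [hz₀, show g * z ^ k * g⁻¹ = (g * z * g⁻¹) ^ k by simp only [conj_pow]]
    exact B.pow_mem hg k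
  have hP1 := h.mem_pPart_B hz₀B hko
  have hP2 : g * z₀ * g⁻¹ ∈ pPart t B :=
    h.mem_pPart_B hgz (by rw [orderOf_conj_eq, hko])
  obtain ⟨n, hn, hne⟩ := h.f2 (E := Subgroup.zpowers z₀) (g := g) (t := t)
    (by rw [Subgroup.zpowers_le]; exact hP1)
    (fun e he => mem_zpowers_conj hP2 he)
  have he := hne z₀ (Subgroup.mem_zpowers _)
  -- `g z₀ g⁻¹` is central in `B`
  have hcen : ∀ b ∈ B, Commute b (g * z₀ * g⁻¹) := by
    intro b hb
    rw [← he]
    have hb' : n⁻¹ * b * n ∈ B := inv_conj_mem_nz hn hb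
    have h1 := (hz₀c _ hb').eq
    have : b * (n * z₀ * n⁻¹) = n * ((n⁻¹ * b * n) * z₀) * n⁻¹ := by group
    show b * (n * z₀ * n⁻¹) = (n * z₀ * n⁻¹) * b
    rw [this, h1]
    group
  have hz₂1 : z₀ ≠ 1 := hk1
  have hinv : g⁻¹ ∈ Nz B := by
    apply mem_nz_of_conj
    intro b hb
    have hc := (hcen b hb).eq
    refine h.mem_B_of_commute hz₀c hz₂1 ?_
    show g⁻¹ * b * g⁻¹⁻¹ * z₀ = z₀ * (g⁻¹ * b * g⁻¹⁻¹)
    have e1 : g⁻¹ * b * g⁻¹⁻¹ * z₀ = g⁻¹ * (b * (g * z₀ * g⁻¹)) * g := by group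
    have e2 : z₀ * (g⁻¹ * b * g⁻¹⁻¹) = g⁻¹ * ((g * z₀ * g⁻¹) * b) * g := by group
    rw [e1, e2, hc]
  simpa using Subgroup.inv_mem _ hinv

/-- A nontrivial central element of `B` of prime order. -/
theorem exists_central_prime : ∃ (z : G) (t : ℕ), t.Prime ∧ z ∈ B ∧ (∀ b ∈ B, Commute b z) ∧ z ≠ 1 ∧
    orderOf z = t := by
  haveI := h.nilB
  haveI : Nontrivial B := (Subgroup.nontrivial_iff_ne_bot _).2 h.B_ne_bot
  haveI : Nontrivial (Subgroup.center B) :=
    (Subgroup.nontrivial_iff_ne_bot _).2 (Group.IsNilpotent.center_ne_bot _)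
  obtain ⟨w', hw1⟩ := exists_ne (1 : Subgroup.center B)
  have hwne : ((w' : B) : G) ≠ 1 := by
    intro e
    apply hw1
    apply Subtype.ext
    apply Subtype.ext
    exact e
  obtain ⟨t, k, ht, -, hk1, hko⟩ := exists_prime_order_pow hwne
  refine ⟨((w' : B) : G) ^ k, t, ht, B.pow_mem (w' : B).2 k, ?_, hk1, hko⟩
  intro b hb
  have := Subgroup.mem_center_iff.mp w'.2 ⟨b, hb⟩
  have h2 : Commute b ((w' : B) : G) := congrArg Subtype.val this
  exact h2.pow_right k

/-- **Key C**: for `1 ≠ y ∈ N_B(A)`, `C(y) ≤ N(B)`. -/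
theorem keyC {y : G} (hyB : y ∈ B) (hyA : y ∈ Nz A) (hy1 : y ≠ 1) :
    Subgroup.centralizer ({y} : Set G) ≤ Nz B := by
  set S := Subgroup.centralizer ({y} : Set G) with hS
  have hmemS : ∀ {g : G}, g ∈ S ↔ g * y = y * g := by
    intro g
    rw [hS, Subgroup.mem_centralizer_iff]
    simp only [Set.mem_singleton_iff, forall_eq]
    exact eq_comm
  have hSt : S ≠ ⊤ := h.centralizer_ne_top hy1
  have hfacS : ∀ g ∈ S, ∃ a ∈ A ⊓ S, ∃ b ∈ B ⊓ S, g = a * b := by
    intro g hg
    obtain ⟨a, ha, b, hb, rfl⟩ := h.fac g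
    have h1 := hmemS.mp hg
    -- `b y b⁻¹ = a⁻¹ y a`
    have h2 : b * y * b⁻¹ = a⁻¹ * y * a := by
      have : a * b * y = y * (a * b) := h1
      calc b * y * b⁻¹ = a⁻¹ * (a * b * y) * b⁻¹ := by group
        _ = a⁻¹ * (y * (a * b)) * b⁻¹ := by rw [this]
        _ = a⁻¹ * y * a := by group
    have h3 : b * y * b⁻¹ * y⁻¹ = a⁻¹ * (y * a * y⁻¹) := by
      rw [h2]; group
    have h4 : b * y * b⁻¹ * y⁻¹ ∈ B := B.mul_mem (B.mul_mem (B.mul_mem hb hyB) (B.inv_mem hb)) (B.inv_mem hyB)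
    have h5 : b * y * b⁻¹ * y⁻¹ ∈ A := by
      rw [h3]
      exact A.mul_mem (A.inv_mem ha) (conj_mem_nz hyA ha)
    have h6 := h.eq_one_of_mem h5 h4
    have hbS : b ∈ S := by
      rw [hmemS]
      have : b * y * b⁻¹ = y := by
        have := mul_eq_one_iff_eq_inv.mp h6
        rw [this]; group
      calc b * y = b * y * b⁻¹ * b := by group
        _ = y * b := by rw [this]
    have haS : a ∈ S := by
      have := S.mul_mem hg (S.inv_mem hbS)
      simpa using this
    exact ⟨a, ⟨ha, haS⟩, b, ⟨hb, hbS⟩, rfl⟩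
  have hsolv := h.ih _ hSt (A ⊓ S) (B ⊓ S) inf_le_right inf_le_right
    (isNilpotent_of_le' inf_le_left h.nilA) (isNilpotent_of_le' inf_le_left h.nilB) hfacS
  obtain ⟨z, t, ht, hzB, hzc, hz1, hzo⟩ := h.exists_central_prime
  haveI : Fact t.Prime := ⟨ht⟩
  have hzS : z ∈ S := by
    rw [hmemS]
    exact ((hzc y hyB).eq).symm
  have htB : t ∣ Nat.card B := hzo ▸ Subgroup.orderOf_dvd_natCard B hzB
  have htA : ¬ t ∣ Nat.card A := h.swap.not_dvd_B ht htB
  have hRB : ∀ (r : ℕ) [Fact r.Prime] (R : Subgroup G), R ≤ S → S ≤ Nz R → IsPGroup r R →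
      ¬ r ∣ Nat.card A → R ≤ B ⊓ S := by
    intro r _ R hRS hRn hRp hr
    refine le_of_normal_factor inf_le_right inf_le_right hfacS hRS hRn ?_
    obtain ⟨k, hk⟩ := IsPGroup.iff_card.mp hRp
    rw [hk]
    refine Nat.Coprime.pow_left _ ?_
    rw [Nat.Prime.coprime_iff_not_dvd Fact.out]
    intro hd
    exact hr (hd.trans (Subgroup.card_dvd_of_le inf_le_left))
  obtain ⟨R₀, hR₀S, hR₀n, hR₀p, hzR₀⟩ := exists_normal_pgroup_of_commute hsolv hzS
    (k := 1) (by rw [pow_one, hzo]) (by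
    intro r _ R hRS hRn hRp u hu
    by_cases hr : r ∣ Nat.card B
    · have hrA : ¬ r ∣ Nat.card A := h.swap.not_dvd_B Fact.out hr
      exact ((hzc u ((hRB r R hRS hRn hRp hrA).trans inf_le_left hu))).symm
    · have hbot := h.k3' hzc hz1 hr hRp (hRn hzS)
      rw [hbot, Subgroup.mem_bot] at hu
      rw [hu]
      exact Commute.one_right z)
  have hR₀B := (hRB t R₀ hR₀S hR₀n hR₀p htA).trans inf_le_left
  intro g hg
  obtain ⟨a, ha, b, hb, rfl⟩ := hfacS g hg
  refine Subgroup.mul_mem _ ?_ (Subgroup.le_normalizer hb.1)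
  exact h.t_lemma hzB hzc hz1 (hR₀B (conj_mem_nz (hR₀n ha.2) hzR₀))

/-- Uniqueness of the conjugate of `B` containing an element of `N_B(A)`. -/
theorem uniq {y g : G} (hyB : y ∈ B) (hyA : y ∈ Nz A) (hy1 : y ≠ 1) (hg : g * y * g⁻¹ ∈ B) :
    g ∈ Nz B := by
  obtain ⟨t, k, ht, -, hk1, hko⟩ := exists_prime_order_pow hy1
  haveI : Fact t.Prime := ⟨ht⟩
  set y₀ := y ^ k with hy₀
  have hy₀B : y₀ ∈ B := B.pow_mem hyB k
  have hy₀A : y₀ ∈ Nz A := Subgroup.pow_mem _ hyA k
  have hgy : g * y₀ * g⁻¹ ∈ B := by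
    rw [hy₀, show g * y ^ k * g⁻¹ = (g * y * g⁻¹) ^ k by simp only [conj_pow]]
    exact B.pow_mem hg k
  have hP1 := h.mem_pPart_B hy₀B hko
  have hP2 : g * y₀ * g⁻¹ ∈ pPart t B :=
    h.mem_pPart_B hgy (by rw [orderOf_conj_eq, hko])
  obtain ⟨n, hn, hne⟩ := h.f2 (E := Subgroup.zpowers y₀) (g := g) (t := t)
    (by rw [Subgroup.zpowers_le]; exact hP1)
    (fun e he => mem_zpowers_conj hP2 he)
  have he := hne y₀ (Subgroup.mem_zpowers _)
  have hc : n⁻¹ * g ∈ Subgroup.centralizer ({y₀} : Set G) := by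
    rw [Subgroup.mem_centralizer_iff]
    rintro _ rfl
    have e1 : y₀ * (n⁻¹ * g) = n⁻¹ * ((n * y₀ * n⁻¹) * g) := by group
    have e2 : n⁻¹ * g * y₀ = n⁻¹ * ((g * y₀ * g⁻¹) * g) := by group
    rw [e1, e2, he]
  have := Subgroup.mul_mem _ hn (h.keyC hy₀B hy₀A hk1 hc)
  simpa using this

/-- **TI**, Sylow form. -/
theorem ti_t {t : ℕ} [ht : Fact t.Prime] {g : G} (hg : g ∉ Nz B) :
    pPart t B ⊓ cj g (pPart t B) = ⊥ := by
  classical
  by_contra hne
  set Q := pPart t B with hQ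
  have hQB : Q ≤ B := pPart_le t B
  have hQn : Nz B ≤ Nz Q := nz_le_nz_pPart h.nilB
  let DD : Set (Subgroup G) := {D | D ≠ ⊥ ∧ ∃ g, g ∉ Nz B ∧ D = Q ⊓ cj g Q}
  obtain ⟨D, ⟨hDne, g₀, hg₀, hD⟩, hmax⟩ := WellFounded.has_min (wellFounded_gt (α := Subgroup G)) DD
    ⟨_, hne, g, hg, rfl⟩
  have hDQ : D ≤ Q := by rw [hD]; exact inf_le_left
  have hDg : ∀ d ∈ D, g₀⁻¹ * d * g₀ ∈ Q := by
    intro d hd
    rw [hD] at hd
    exact mem_cj.mp hd.2
  set C : Subgroup G := Subgroup.centralizer (D : Set G) with hC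
  have htB : t ∣ Nat.card B := by
    by_contra hn
    have : Nat.card Q = 1 := by
      obtain ⟨k, hk⟩ := IsPGroup.iff_card.mp (isPGroup_pPart (p := t) B)
      rcases Nat.eq_zero_or_pos k with rfl | hk0
      · simpa using hk
      · exfalso
        apply hn
        refine Dvd.dvd.trans ?_ (Subgroup.card_dvd_of_le hQB)
        rw [hk]
        exact dvd_pow_self t hk0.ne'
    have hb : Q = ⊥ := Subgroup.card_eq_one.mp this
    rw [hb] at hDQ
    exact hDne (le_bot_iff.mp hDQ)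
  -- transitivity
  have transit : ∀ x : G, (∀ d ∈ D, x⁻¹ * d * x ∈ Q) → ∃ c ∈ C, ∃ n ∈ Nz B, x = c * n := by
    intro x hx
    obtain ⟨n, hn, hne⟩ := h.f2 (E := cj x⁻¹ D) (g := x) (t := t)
      (by
        intro e he
        rw [mem_cj, inv_inv] at he
        have := hx _ he
        have e1 : x⁻¹ * (x * e * x⁻¹) * x = e := by group
        rwa [e1] at this)
      (by
        intro e he
        rw [mem_cj, inv_inv] at he
        exact hDQ he)
    refine ⟨x * n⁻¹, ?_, n, hn, by simp⟩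
    rw [hC, Subgroup.mem_centralizer_iff]
    intro d hd
    have he : x⁻¹ * d * x ∈ cj x⁻¹ D := by
      rw [mem_cj, inv_inv]
      have e1 : x * (x⁻¹ * d * x) * x⁻¹ = d := by group
      rwa [e1]
    have h1 := hne _ he
    have e1 : x * (x⁻¹ * d * x) * x⁻¹ = d := by group
    rw [e1] at h1
    have h2 : x⁻¹ * d * x = n⁻¹ * d * n := by
      have h3 : n⁻¹ * (n * (x⁻¹ * d * x) * n⁻¹) * n = x⁻¹ * d * x := by group
      rw [h1] at h3
      exact h3.symm
    calc d * (x * n⁻¹) = x * (x⁻¹ * d * x) * n⁻¹ := by group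
      _ = x * (n⁻¹ * d * n) * n⁻¹ := by rw [h2]
      _ = x * n⁻¹ * d := by group
  -- Sylow
  have htA : ¬ t ∣ Nat.card A := h.swap.not_dvd_B ht.out htB
  let SQ : Sylow t G := (isPGroup_pPart (p := t) B).toSylow (h.swap.not_dvd_index_pPart htA)
  have hconjU : ∀ U : Subgroup G, U ≤ C → IsPGroup t U → ∃ c ∈ C, ∀ u ∈ U, c⁻¹ * u * c ∈ Q := by
    intro U hUC hUp
    have hUD : U ≤ Nz D := by
      intro u hu
      apply mem_nz_of_conj
      intro d hd
      have := Subgroup.mem_centralizer_iff.mp (hUC hu) d hd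
      have e : u * d * u⁻¹ = d := by rw [← this]; group
      rwa [e]
    have hDp : IsPGroup t D := (isPGroup_pPart (p := t) B).to_le hDQ
    have hT : IsPGroup t (U ⊔ D : Subgroup G) := IsPGroup.to_sup_of_normal_right' hUp hDp hUD
    obtain ⟨y, hy⟩ := Cfsg.Agent.Lib.Transfer.Frobenius.exists_conj_mem_of_isPGroup SQ hT
    obtain ⟨c, hc, n, hn, e⟩ := transit y⁻¹ (by
      intro d hd
      have h0 : y * d * y⁻¹ ∈ Q := hy d (le_sup_right (a := U) hd)
      simpa using h0)
    refine ⟨c, hc, ?_⟩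
    intro u hu
    have h1 : y * u * y⁻¹ ∈ Q := hy u (le_sup_left (b := D) hu)
    have h2 := conj_mem_nz (hQn hn) h1
    have e2 : y = n⁻¹ * c⁻¹ := by
      have : y = (y⁻¹)⁻¹ := by simp
      rw [this, e]; simp
    have e3 : n * (y * u * y⁻¹) * n⁻¹ = c⁻¹ * u * c := by
      rw [e2]; group
    rwa [e3] at h2
  by_cases hπ : ∃ (r : ℕ) (_ : Fact r.Prime), r ∣ Nat.card A ∧ ∃ w ∈ C, w ∈ Nz B ∧ w ≠ 1 ∧ ∃ k, orderOf w = r ^ k
  · -- a `π`-element of `N(B)` centralizing `D`
    obtain ⟨r, hr, hrA, w, hwC, hwN, hw1, k, hwo⟩ := hπ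
    have hrB : ¬ r ∣ Nat.card B := h.not_dvd_B hr.out hrA
    set X := A ⊓ Nz B with hX
    have hXS : X ≤ Nz B := inf_le_right
    have hBS : B ≤ Nz B := Subgroup.le_normalizer
    have hfacN : ∀ g ∈ Nz B, ∃ b ∈ B, ∃ a ∈ X, g = b * a := by
      intro g hg
      obtain ⟨b, hb, a, ha, rfl⟩ := h.fac_inv g
      refine ⟨b, hb, a, ⟨ha, ?_⟩, rfl⟩
      have := Subgroup.mul_mem _ (Subgroup.inv_mem _ (hBS hb)) hg
      simpa using this
    have hnilX : Group.IsNilpotent X := isNilpotent_of_le' inf_le_left h.nilA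
    have hi : ¬ r ∣ (pPart r X).relIndex (Nz B) := by
      intro hd2
      rw [← Subgroup.relIndex_mul_relIndex _ X _ (pPart_le r X) hXS] at hd2
      rcases (Nat.Prime.dvd_mul hr.out).1 hd2 with h4 | h4
      · exact not_dvd_relIndex_pPart hnilX h4
      · exact hrB (h4.trans (relIndex_dvd_of_factor hBS hXS hfacN))
    have hwp : IsPGroup r (Subgroup.zpowers w) := by
      apply IsPGroup.of_card (n := k)
      rw [Nat.card_zpowers, hwo]
    obtain ⟨c, hc, hcw⟩ := sylow_conj_in ((pPart_le r X).trans hXS)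
      (by rw [Subgroup.zpowers_le]; exact hwN) (isPGroup_pPart X) hwp hi
    obtain ⟨b, hb, a, ha, rfl⟩ := hfacN c hc
    have h1 : (b * a)⁻¹ * w * (b * a) ∈ X := pPart_le r X (hcw w (Subgroup.mem_zpowers w))
    have h2 := X.mul_mem (X.mul_mem ha h1) (X.inv_mem ha)
    have e1 : a * ((b * a)⁻¹ * w * (b * a)) * a⁻¹ = b⁻¹ * w * b := by group
    rw [e1] at h2
    have hx1 : b⁻¹ * w * b ≠ 1 := by
      intro e
      apply hw1
      have : w = b * (b⁻¹ * w * b) * b⁻¹ := by group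
      rw [this, e]; group
    obtain ⟨d, hd, hd1⟩ := (Subgroup.bot_or_exists_ne_one D).resolve_left hDne
    have hdc : w * d = d * w := (Subgroup.mem_centralizer_iff.mp hwC d hd).symm
    have hcomm : b⁻¹ * d * b ∈ Subgroup.centralizer ({b⁻¹ * w * b} : Set G) := by
      rw [Subgroup.mem_centralizer_iff]
      rintro _ rfl
      have e2 : b⁻¹ * w * b * (b⁻¹ * d * b) = b⁻¹ * (w * d) * b := by group
      have e3 : b⁻¹ * d * b * (b⁻¹ * w * b) = b⁻¹ * (d * w) * b := by group
      rw [e2, e3, hdc]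
    have hyA : b⁻¹ * d * b ∈ Nz A := h.swap.keyC h2.1 h2.2 hx1 hcomm
    have hyB : b⁻¹ * d * b ∈ B := inv_conj_mem_nz (hBS hb) (hQB (hDQ hd))
    have hy1 : b⁻¹ * d * b ≠ 1 := by
      intro e
      apply hd1
      have : d = b * (b⁻¹ * d * b) * b⁻¹ := by group
      rw [this, e]; group
    have hu := h.uniq (g := g₀⁻¹ * b) hyB hyA hy1 (by
      have e4 : g₀⁻¹ * b * (b⁻¹ * d * b) * (g₀⁻¹ * b)⁻¹ = g₀⁻¹ * d * g₀ := by group
      rw [e4]
      exact hQB (hDg d hd))
    apply hg₀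
    have := Subgroup.mul_mem _ (hBS hb) (Subgroup.inv_mem _ hu)
    simpa using this
  · -- no such element: Frobenius applies
    have hno : ∀ x ∈ C, x ∈ Nz B → (orderOf x).Coprime (Nat.card A) := by
      intro x hxC hxN
      by_contra hnc
      obtain ⟨r, hr, hd⟩ := Nat.Prime.not_coprime_iff_dvd.mp hnc
      apply hπ
      refine ⟨r, ⟨hr⟩, hd.2, x ^ (orderOf x / r), C.pow_mem hxC _, Subgroup.pow_mem _ hxN _, ?_, 1, ?_⟩
      · intro e
        have h3 := orderOf_dvd_of_pow_eq_one e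
        have h4 := Nat.le_of_dvd (Nat.div_pos (Nat.le_of_dvd (orderOf_pos x) hd.1) hr.pos) h3
        have h5 := Nat.div_lt_self (orderOf_pos x) hr.one_lt
        omega
      · rw [orderOf_pow_orderOf_div (orderOf_pos x).ne' hd.1, pow_one]
    have inner : ∀ U : Subgroup G, U ≤ Q → U ≤ C → ∀ g ∈ C, g ∈ Nz U → (orderOf g).Coprime t →
        ∀ u ∈ U, Commute g u := by
      intro U hUQ hUC g hgC hgU hgt u hu
      by_cases hUD : U ≤ D
      · exact (Subgroup.mem_centralizer_iff.mp hgC u (hUD hu)).symm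
      have hgN : g ∈ Nz B := by
        by_contra hgN
        obtain ⟨v, hv, hvD⟩ := SetLike.not_le_iff_exists.mp hUD
        have hDD' : D ≤ Q ⊓ cj g Q := by
          intro d hd
          refine ⟨hDQ hd, mem_cj.mpr ?_⟩
          have h1 := Subgroup.mem_centralizer_iff.mp hgC d hd
          have e : g⁻¹ * d * g = d := by
            rw [mul_assoc, h1]; group
          rw [e]
          exact hDQ hd
        have hmem : (Q ⊓ cj g Q) ∈ DD := by
          refine ⟨?_, g, hgN, rfl⟩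
          intro hb
          rw [hb] at hDD'
          exact hDne (le_bot_iff.mp hDD')
        refine hmax _ hmem (lt_of_le_of_ne hDD' ?_)
        intro he
        apply hvD
        rw [he]
        exact ⟨hUQ hv, mem_cj.mpr (hUQ (inv_conj_mem_nz hgU hv))⟩
      have hgB : g ∈ B := h.swap.mem_A_of_nz hgN (hno g hgC hgN)
      exact (commute_pPart_ppPart h.nilB (hUQ hu) (mem_ppPart_of h.nilB hgB hgt)).symm
    obtain ⟨K, hKC, hCK, hKt, m, hm⟩ := exists_normal_complement_in (C := C) (t := t) (by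
      intro U hUC hUp g' hgC hgU hgt u hu
      obtain ⟨c, hc, hcU⟩ := hconjU U hUC hUp
      have h1 := inner (cj c⁻¹ U) (by
          intro x hx
          rw [mem_cj, inv_inv] at hx
          have := hcU _ hx
          have e : c⁻¹ * (c * x * c⁻¹) * c = x := by group
          rwa [e] at this)
        (by
          intro x hx
          rw [mem_cj, inv_inv] at hx
          have h2 := hUC hx
          have := C.mul_mem (C.mul_mem (C.inv_mem hc) h2) hc
          have e : c⁻¹ * (c * x * c⁻¹) * c = x := by group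
          rwa [e] at this)
        (c⁻¹ * g' * c) (C.mul_mem (C.mul_mem (C.inv_mem hc) hgC) hc)
        (by
          apply mem_nz_of_conj
          intro x hx
          rw [mem_cj, inv_inv] at hx ⊢
          have h2 := conj_mem_nz hgU hx
          have e : c * (c⁻¹ * g' * c * x * (c⁻¹ * g' * c)⁻¹) * c⁻¹ = g' * (c * x * c⁻¹) * g'⁻¹ := by
            group
          rwa [e])
        (by
          have : orderOf (c⁻¹ * g' * c) = orderOf g' := by
            simpa using orderOf_conj_eq c⁻¹ g'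
          rwa [this])
        (c⁻¹ * u * c)
        (by
          rw [mem_cj, inv_inv]
          have e : c * (c⁻¹ * u * c) * c⁻¹ = u := by group
          rwa [e])
      have h3 := h1.eq
      have e1 : c⁻¹ * g' * c * (c⁻¹ * u * c) = c⁻¹ * (g' * u) * c := by group
      have e2 : c⁻¹ * u * c * (c⁻¹ * g' * c) = c⁻¹ * (u * g') * c := by group
      rw [e1, e2] at h3
      exact mul_left_cancel (mul_right_cancel h3))
    -- a central `t`-element of `B`
    have hQne : Q ≠ ⊥ := by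
      intro hb
      rw [hb] at hDQ
      exact hDne (le_bot_iff.mp hDQ)
    haveI : Nontrivial Q := (Subgroup.nontrivial_iff_ne_bot _).2 hQne
    haveI hcen := (isPGroup_pPart (p := t) B).center_nontrivial
    obtain ⟨w', hw1⟩ := exists_ne (1 : Subgroup.center (pPart t B))
    set z : G := ((w' : pPart t B) : G) with hz
    have hzQ : z ∈ Q := (w' : pPart t B).2
    have hz1 : z ≠ 1 := by
      intro e
      apply hw1
      apply Subtype.ext
      apply Subtype.ext
      exact e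
    have hzc : ∀ b ∈ B, Commute b z := by
      intro b hb
      obtain ⟨b₁, hb₁, b₂, hb₂, rfl⟩ := exists_parts (p := t) h.nilB hb
      refine Commute.mul_left ?_ (commute_pPart_ppPart h.nilB hzQ hb₂).symm
      have := Subgroup.mem_center_iff.mp w'.2 ⟨b₁, hb₁⟩
      exact congrArg Subtype.val this
    have hzC : z ∈ C := by
      rw [hC, Subgroup.mem_centralizer_iff]
      intro d hd
      exact (hzc d (hQB (hDQ hd))).eq
    obtain ⟨j, hj⟩ := order_of_isPGroup (isPGroup_pPart (p := t) B) hzQ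
    -- `K` is a `π'`-group
    have hKA : (Nat.card K).Coprime (Nat.card A) := by
      by_contra hnc
      obtain ⟨r, hr, hd⟩ := Nat.Prime.not_coprime_iff_dvd.mp hnc
      haveI : Fact r.Prime := ⟨hr⟩
      have hrB : ¬ r ∣ Nat.card B := h.not_dvd_B hr hd.2
      have hsolvz : Group.IsSolvable (Subgroup.zpowers z) :=
        isSolvable_of_comm (by
          rintro ⟨_, i, rfl⟩ ⟨_, l, rfl⟩
          apply Subtype.ext
          exact zpow_mul_comm z i l)
      obtain ⟨P, hP⟩ := Cfsg.Agent.Lib.Coprime.InvSylow.exists_invariant_sylow (A := Subgroup.zpowers z)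
        (K := K) (by rw [Subgroup.zpowers_le]; exact hCK hzC)
        (by
          rw [Nat.card_zpowers, hj]
          exact Nat.Coprime.pow_left _ hKt.symm)
        (Or.inl hsolvz) r
      have hbot := h.k3' (R := (P : Subgroup K).map K.subtype) hzc hz1 hrB (P.2.map _)
        (hP (Subgroup.mem_zpowers z))
      have hPb : (P : Subgroup K) = ⊥ :=
        (Subgroup.map_eq_bot_iff_of_injective _ K.subtype_injective).mp hbot
      exact P.ne_bot_of_dvd_card hd.1 hPb
    -- `K` is the `t'`-part of `B`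
    have hUC : ppPart t B ≤ C := by
      intro u hu
      rw [hC, Subgroup.mem_centralizer_iff]
      intro d hd
      exact (commute_pPart_ppPart h.nilB (hDQ hd) hu).eq
    have hUK : ppPart t B ≤ K := by
      intro u hu
      refine mem_of_coprime_relIndex hKC hCK (hUC hu) ?_
      rw [hm]
      exact Nat.Coprime.pow_right _ (order_coprime_of_mem_ppPart h.nilB hu)
    have hKU : K ≤ ppPart t B := by
      obtain ⟨k, hk⟩ := exists_relIndex_ppPart (p := t) h.nilB
      have hi : (ppPart t B).index = t ^ k * Nat.card A := by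
        rw [← Subgroup.relIndex_mul_index (ppPart_le t B), hk, h.swap.index_A]
      have h1 : (ppPart t B).relIndex K ∣ Nat.card K := Subgroup.relIndex_dvd_card _ _
      have h2 : (ppPart t B).relIndex K ∣ (ppPart t B).index := Subgroup.relIndex_dvd_index_of_le hUK
      rw [hi] at h2
      have h3 : (Nat.card K).Coprime (t ^ k * Nat.card A) :=
        Nat.Coprime.mul_right (Nat.Coprime.pow_right _ hKt) hKA
      exact Subgroup.relIndex_eq_one.mp (Nat.eq_one_of_dvd_coprimes h3 h1 h2)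
    have hKe : K = ppPart t B := le_antisymm hKU hUK
    have hCN : C ≤ Nz B := by
      intro c hc
      apply h.swap.w t
      rw [← hKe]
      exact hCK hc
    obtain ⟨c, hc, n, hn, e⟩ := transit g₀ hDg
    apply hg₀
    rw [e]
    exact Subgroup.mul_mem _ (hCN hc) hn

/-- **TI**: `B ∩ B^g ≠ 1` forces `g ∈ N(B)`. -/
theorem ti {g v : G} (hv : v ∈ B) (hv' : g⁻¹ * v * g ∈ B) (hv1 : v ≠ 1) : g ∈ Nz B := by
  by_contra hg
  obtain ⟨t, k, ht, -, hk1, hko⟩ := exists_prime_order_pow hv1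
  haveI : Fact t.Prime := ⟨ht⟩
  have h1 := h.mem_pPart_B (B.pow_mem hv k) hko
  have h2 : g⁻¹ * v ^ k * g ∈ pPart t B := by
    refine h.mem_pPart_B ?_ ?_
    · have e : g⁻¹ * v ^ k * g = (g⁻¹ * v * g) ^ k := by
        have := conj_pow (a := g⁻¹) (b := v) (i := k)
        simpa using this.symm
      rw [e]
      exact B.pow_mem hv' k
    · have := orderOf_conj_eq g⁻¹ (v ^ k)
      rw [← hko, ← this]
      simp
  have h3 : v ^ k ∈ pPart t B ⊓ cj g (pPart t B) := ⟨h1, mem_cj.mpr h2⟩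
  rw [h.ti_t hg, Subgroup.mem_bot] at h3
  exact hk1 h3

end KWData

end Cfsg.Agent.Lib.KW
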