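import Cfsg.Agent.Lib.KW.Basic

set_option autoImplicit false

/-!
# Tools for the Kegel-Wielandt theorem, part 2

Conjugacy in subgroups, Wielandt's conjugacy theorem for nilpotent Hall subgroups, a normal subgroup
lemma for factorized subgroups, subgroup forms of Fitting's and Frobenius's theorems.
-/

namespace Cfsg.Agent.Lib.KW

open Subgroup Cfsg.Agent.Lib.Solvable.Carter
open scoped Pointwise

variable {G : Type*} [Group G] [Finite G]

theorem card_subgroupOf_of_le' {H K : Subgroup G} (h : H ≤ K) :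
    Nat.card (H.subgroupOf K) = Nat.card H :=
  Nat.card_congr (Subgroup.subgroupOfEquivOfLe h).toEquiv

theorem isPGroup_subgroupOf {p : ℕ} {H K : Subgroup G} (hH : IsPGroup p H) :
    IsPGroup p (H.subgroupOf K) :=
  hH.comap_of_injective K.subtype K.subtype_injective |> fun h => h

theorem isNilpotent_of_le' {H K : Subgroup G} (h : H ≤ K) (hK : Group.IsNilpotent K) :
    Group.IsNilpotent H :=
  isNilpotent_of_injective (Subgroup.inclusion h) (Subgroup.inclusion_injective h) hK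

theorem isSolvable_of_le' {H K : Subgroup G} (h : H ≤ K) (hK : Group.IsSolvable K) :
    Group.IsSolvable H :=
  Group.isSolvable_of_isSolvable_injective (f := Subgroup.inclusion h)
    (Subgroup.inclusion_injective h)

/-- Sylow conjugacy inside a subgroup. -/
theorem sylow_conj_in {p : ℕ} [Fact p.Prime] {C P R : Subgroup G} (hPC : P ≤ C) (hRC : R ≤ C)
    (hP : IsPGroup p P) (hR : IsPGroup p R) (hi : ¬ p ∣ P.relIndex C) :
    ∃ c ∈ C, ∀ r ∈ R, c⁻¹ * r * c ∈ P := by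
  have hP' : IsPGroup p (P.subgroupOf C) := isPGroup_subgroupOf hP
  have hR' : IsPGroup p (R.subgroupOf C) := isPGroup_subgroupOf hR
  let S : Sylow p C := hP'.toSylow hi
  obtain ⟨y, hy⟩ := Cfsg.Agent.Lib.Transfer.Frobenius.exists_conj_mem_of_isPGroup S hR'
  refine ⟨(y : G)⁻¹, C.inv_mem y.2, ?_⟩
  intro r hr
  have h1 := hy ⟨r, hRC hr⟩ (Subgroup.mem_subgroupOf.mpr hr)
  have h2 : ((y * ⟨r, hRC hr⟩ * y⁻¹ : C) : G) ∈ P := Subgroup.mem_subgroupOf.mp h1
  simpa using h2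

/-- **Wielandt**: conjugating nilpotent subgroups into a nilpotent Hall subgroup. -/
theorem wielandt_conj : ∀ (n : ℕ) {C S U : Subgroup G}, Nat.card U = n → S ≤ C → U ≤ C →
    Group.IsNilpotent S → Group.IsNilpotent U → (Nat.card S).Coprime (S.relIndex C) →
    (∀ q : ℕ, q.Prime → q ∣ Nat.card U → q ∣ Nat.card S) → ∃ c ∈ C, ∀ u ∈ U, c * u * c⁻¹ ∈ S := by
  intro n
  induction n using Nat.strong_induction_on with
  | _ n ih =>
  intro C S U hn hSC hUC hS hU hH hq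
  by_cases h1 : Nat.card U = 1
  · refine ⟨1, C.one_mem, ?_⟩
    intro u hu
    have hb : U = ⊥ := Subgroup.card_eq_one.mp h1
    rw [hb, Subgroup.mem_bot] at hu
    rw [hu]
    simp [S.one_mem]
  obtain ⟨p, hp, hpU⟩ := Nat.exists_prime_and_dvd h1
  haveI : Fact p.Prime := ⟨hp⟩
  have hpS := hq p hp hpU
  -- the `p'`-part
  set U' := ppPart p U with hU'
  have hU'le : U' ≤ U := ppPart_le p U
  have hU'card : Nat.card U' < n := by
    rw [← hn]
    have hd : Nat.card U' ∣ Nat.card U := Subgroup.card_dvd_of_le hU'le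
    have hne : Nat.card U' ≠ Nat.card U := by
      intro he
      have hc : (Nat.card U').Coprime p := ppPart_coprime U
      rw [he] at hc
      exact hp.one_lt.ne' (Nat.eq_one_of_dvd_coprimes hc hpU (dvd_refl p))
    exact lt_of_le_of_ne (Nat.le_of_dvd Nat.card_pos hd) hne
  obtain ⟨c₁, hc₁, hc₁U⟩ := ih _ hU'card (C := C) (S := S) (U := U') rfl hSC (hU'le.trans hUC) hS
    (isNilpotent_of_le' hU'le hU) hH
    (fun q hq' hd => hq q hq' (hd.trans (Subgroup.card_dvd_of_le hU'le)))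
  set C' : Subgroup G := C ⊓ Subgroup.centralizer (cj c₁ U' : Set G) with hC'
  set Sp := pPart p S with hSp
  have hSpC' : Sp ≤ C' := by
    intro s hs
    refine Subgroup.mem_inf.mpr ⟨hSC (pPart_le p S hs), Subgroup.mem_centralizer_iff.mpr ?_⟩
    rintro v ⟨u, hu, rfl⟩
    have hv : (MulAut.conj c₁).toMonoidHom u ∈ S := by
      simpa [MulAut.conj_apply] using hc₁U u hu
    refine (commute_of_coprime hS hv (pPart_le p S hs) ?_).eq
    obtain ⟨k, hk⟩ := order_of_isPGroup (isPGroup_pPart S) hs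
    rw [hk]
    have : orderOf ((MulAut.conj c₁).toMonoidHom u) = orderOf u := by
      simpa [MulAut.conj_apply] using orderOf_conj_eq c₁ u
    rw [this]
    exact Nat.Coprime.pow_right _ (order_coprime_of_mem_ppPart hU hu)
  set Vp : Subgroup G := cj c₁ (pPart p U) with hVp
  have hVpC' : Vp ≤ C' := by
    rintro _ ⟨u, hu, rfl⟩
    refine Subgroup.mem_inf.mpr ⟨?_, Subgroup.mem_centralizer_iff.mpr ?_⟩
    · have : (MulAut.conj c₁).toMonoidHom u = c₁ * u * c₁⁻¹ := by simp [MulAut.conj_apply]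
      rw [this]
      exact C.mul_mem (C.mul_mem hc₁ (hUC (pPart_le p U hu))) (C.inv_mem hc₁)
    · rintro _ ⟨v, hv, rfl⟩
      have hcomm := (commute_pPart_ppPart hU hu hv).eq
      have := congrArg (MulAut.conj c₁).toMonoidHom hcomm
      simpa using this.symm
  have hi : ¬ p ∣ Sp.relIndex C' := by
    intro hd
    have h2 : Sp.relIndex C' ∣ Sp.relIndex C :=
      ⟨_, (Subgroup.relIndex_mul_relIndex Sp C' C hSpC' inf_le_left).symm⟩
    have h3 : Sp.relIndex C = Sp.relIndex S * S.relIndex C :=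
      (Subgroup.relIndex_mul_relIndex Sp S C (pPart_le p S) hSC).symm
    rw [h3] at h2
    rcases (Nat.Prime.dvd_mul hp).1 (hd.trans h2) with h4 | h4
    · exact not_dvd_relIndex_pPart hS h4
    · exact hp.one_lt.ne' (Nat.eq_one_of_dvd_coprimes hH hpS h4)
  obtain ⟨c₂, hc₂, hc₂V⟩ := sylow_conj_in hSpC' hVpC' (isPGroup_pPart S) (isPGroup_cj (isPGroup_pPart U)) hi
  have hc₂' := Subgroup.mem_inf.mp hc₂
  refine ⟨c₂⁻¹ * c₁, C.mul_mem (C.inv_mem hc₂'.1) hc₁, ?_⟩
  intro u hu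
  obtain ⟨u₁, hu₁, u₂, hu₂, rfl⟩ := exists_parts (p := p) hU hu
  have e1 : (c₂⁻¹ * c₁) * (u₁ * u₂) * (c₂⁻¹ * c₁)⁻¹ =
      (c₂⁻¹ * (c₁ * u₁ * c₁⁻¹) * c₂) * (c₂⁻¹ * (c₁ * u₂ * c₁⁻¹) * c₂) := by group
  rw [e1]
  refine S.mul_mem (pPart_le p S (hc₂V _ (conj_mem_cj hu₁))) ?_
  have hcomm : c₂ * (c₁ * u₂ * c₁⁻¹) = (c₁ * u₂ * c₁⁻¹) * c₂ := by
    have := Subgroup.mem_centralizer_iff.mp hc₂'.2 (c₁ * u₂ * c₁⁻¹) (conj_mem_cj hu₂)
    exact this.symm
  have e2 : c₂⁻¹ * (c₁ * u₂ * c₁⁻¹) * c₂ = c₁ * u₂ * c₁⁻¹ := by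
    rw [mul_assoc, ← hcomm]; group
  rw [e2]
  exact hc₁U u₂ hu₂

/-- `|K| | |H|` form for a normal-in-`S` subgroup `R` of a factorized subgroup `S = HK`. -/
theorem le_of_normal_factor {S H K R : Subgroup G} (hH : H ≤ S) (hK : K ≤ S)
    (hfac : ∀ g ∈ S, ∃ h ∈ H, ∃ k ∈ K, g = h * k) (hR : R ≤ S) (hRn : S ≤ Nz R)
    (hc : (Nat.card R).Coprime (Nat.card H)) : R ≤ K := by
  let T : Subgroup G :=
    { carrier := {g | ∃ r ∈ R, ∃ k ∈ K, g = r * k}
      mul_mem' := by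
        rintro _ _ ⟨r, hr, k, hk, rfl⟩ ⟨r', hr', k', hk', rfl⟩
        refine ⟨r * (k * r' * k⁻¹), R.mul_mem hr (conj_mem_nz (hRn (hK hk)) hr'), k * k',
          K.mul_mem hk hk', ?_⟩
        group
      one_mem' := ⟨1, R.one_mem, 1, K.one_mem, by simp⟩
      inv_mem' := by
        rintro _ ⟨r, hr, k, hk, rfl⟩
        refine ⟨k⁻¹ * r⁻¹ * k, ?_, k⁻¹, K.inv_mem hk, by group⟩
        have := conj_mem_nz (hRn (S.inv_mem (hK hk))) (R.inv_mem hr)
        simpa using this }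
  have hKT : K ≤ T := fun k hk => ⟨1, R.one_mem, k, hk, by simp⟩
  have hRT : R ≤ T := fun r hr => ⟨r, hr, 1, K.one_mem, by simp⟩
  have hTS : T ≤ S := by
    rintro _ ⟨r, hr, k, hk, rfl⟩
    exact S.mul_mem (hR hr) (hK hk)
  have h1 := Cfsg.Agent.Lib.Basic.ProductCard.ncard_mul_mul_card_inf R K
  have h1' : ((R : Set G) * (K : Set G)) = (T : Set G) := by
    ext x
    simp only [Set.mem_mul, SetLike.mem_coe]
    constructor
    · rintro ⟨r, hr, k, hk, rfl⟩
      exact ⟨r, hr, k, hk, rfl⟩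
    · rintro ⟨r, hr, k, hk, rfl⟩
      exact ⟨r, hr, k, hk, rfl⟩
  rw [h1', show (T : Set G).ncard = Nat.card T from (Nat.card_coe_set_eq _).symm] at h1
  have h2 := Cfsg.Agent.Lib.Basic.ProductCard.ncard_mul_mul_card_inf H K
  have h2' : ((H : Set G) * (K : Set G)) = (S : Set G) := by
    ext x
    simp only [Set.mem_mul, SetLike.mem_coe]
    constructor
    · rintro ⟨r, hr, k, hk, rfl⟩
      exact S.mul_mem (hH hr) (hK hk)
    · intro hx
      obtain ⟨h, hh, k, hk, e⟩ := hfac x hx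
      exact ⟨h, hh, k, hk, e.symm⟩
  rw [h2', show (S : Set G).ncard = Nat.card S from (Nat.card_coe_set_eq _).symm] at h2
  have h3 := card_mul_relIndex_of_le hKT
  have h4 := card_mul_relIndex_of_le hTS
  have hK0 : 0 < Nat.card K := Nat.card_pos
  have h5 : K.relIndex T ∣ Nat.card R := by
    refine ⟨Nat.card (R ⊓ K : Subgroup G), ?_⟩
    apply Nat.eq_of_mul_eq_mul_left hK0
    rw [← mul_assoc, h3, h1, mul_comm]
  have h6 : K.relIndex T ∣ Nat.card H := by
    refine ⟨T.relIndex S * Nat.card (H ⊓ K : Subgroup G), ?_⟩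
    apply Nat.eq_of_mul_eq_mul_right hK0
    rw [← h2, ← h4, ← h3]
    ring
  have h7 : K.relIndex T = 1 := Nat.eq_one_of_dvd_coprimes hc h5 h6
  have h8 : T ≤ K := Subgroup.relIndex_eq_one.mp h7
  exact hRT.trans h8

/-- **Fitting**, subgroup form: in a solvable subgroup `S`, a `t`-element commuting with every normal
prime-power subgroup of `S` lies in a normal `t`-subgroup of `S`. -/
theorem exists_normal_pgroup_of_commute {S : Subgroup G} (hS : Group.IsSolvable S) {t : ℕ}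
    [Fact t.Prime] {x : G} (hx : x ∈ S) {k : ℕ} (ht : orderOf x = t ^ k)
    (h : ∀ (r : ℕ) [Fact r.Prime] (R : Subgroup G), R ≤ S → S ≤ Nz R → IsPGroup r R →
      ∀ u ∈ R, Commute x u) :
    ∃ R : Subgroup G, R ≤ S ∧ S ≤ Nz R ∧ IsPGroup t R ∧ x ∈ R := by
  classical
  let x' : S := ⟨x, hx⟩
  -- map of normal subgroup
  have hmap : ∀ N : Subgroup S, N.Normal → S ≤ Nz (N.map S.subtype) := by
    intro N hN s hs
    apply mem_nz_of_conj
    rintro _ ⟨y, hy, rfl⟩
    refine ⟨⟨s, hs⟩ * y * ⟨s, hs⟩⁻¹, hN.conj_mem y hy _, ?_⟩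
    simp
  have hcore : ∀ (p : ℕ) [Fact p.Prime], ∀ y ∈ Cfsg.pCore p S, x' * y = y * x' := by
    intro p _ y hy
    have := h p ((Cfsg.pCore p S).map S.subtype) (by
      rintro _ ⟨y, -, rfl⟩; exact y.2) (hmap _ inferInstance)
      ((Cfsg.Agent.Lib.Basic.PCore.pCore_isPGroup p).map _) y ⟨y, hy, rfl⟩
    apply Subtype.ext
    exact this.eq
  have hF : ∀ y ∈ Cfsg.fittingSubgroup S, y * x' = x' * y := by
    have hle : Cfsg.fittingSubgroup S ≤ Subgroup.centralizer ({x'} : Set S) := by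
      rw [Cfsg.Agent.Lib.Basic.PCore.fittingSubgroup_eq_iSup_pCore]
      apply iSup_le
      intro p
      haveI : Fact (p.1).Prime := ⟨Nat.prime_of_mem_primeFactors p.2⟩
      intro y hy
      rw [Subgroup.mem_centralizer_iff]
      rintro _ rfl
      exact hcore p.1 y hy
    intro y hy
    have := Subgroup.mem_centralizer_iff.mp (hle hy) x' rfl
    exact this.symm
  have hxc : x' ∈ Subgroup.centralizer (Cfsg.fittingSubgroup S : Set S) := by
    rw [Subgroup.mem_centralizer_iff]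
    intro y hy
    exact hF y hy
  have hle2 : Subgroup.centralizer (Cfsg.fittingSubgroup S : Set S) ≤ Cfsg.fittingSubgroup S := by
    refine Cfsg.Agent.Lib.Components.Fitting.le_fitting_of_solvable_of_le_centralizer _ le_rfl
      Subgroup.le_normalizer ?_
    haveI := hS
    infer_instance
  have hxF := hle2 hxc
  have hxt : x' ∈ Cfsg.pCore t S := by
    refine Cfsg.Agent.Lib.Basic.PCore.mem_pCore_of_normal_nilpotent inferInstance
      Cfsg.Agent.Lib.Basic.PCore.fittingSubgroup_isNilpotent hxF Fact.out (k := k) ?_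
    rw [Subgroup.orderOf_mk]
    exact ht
  refine ⟨(Cfsg.pCore t S).map S.subtype, ?_, hmap _ inferInstance,
    (Cfsg.Agent.Lib.Basic.PCore.pCore_isPGroup t).map _, ⟨x', hxt, rfl⟩⟩
  rintro _ ⟨y, -, rfl⟩
  exact y.2

/-- **Frobenius**, subgroup form. -/
theorem exists_normal_complement_in {C : Subgroup G} {t : ℕ} [Fact t.Prime]
    (h : ∀ U : Subgroup G, U ≤ C → IsPGroup t U → ∀ g ∈ C, g ∈ Nz U →
      (orderOf g).Coprime t → ∀ u ∈ U, Commute g u) :
    ∃ K : Subgroup G, K ≤ C ∧ C ≤ Nz K ∧ (Nat.card K).Coprime t ∧ ∃ m, K.relIndex C = t ^ m := by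
  classical
  have hF : Cfsg.Agent.Lib.Transfer.Frobenius.FrobeniusHyp t C := by
    intro Q hQ g hg hc
    rw [Subgroup.mem_centralizer_iff]
    intro y hy
    have hg' : (g : G) ∈ Nz (Q.map C.subtype) := by
      apply mem_nz_of_conj
      rintro _ ⟨q, hq, rfl⟩
      refine ⟨g * q * g⁻¹, (Subgroup.mem_normalizer_iff.mp hg q).mp hq, ?_⟩
      simp
    have := h (Q.map C.subtype) (by rintro _ ⟨y, -, rfl⟩; exact y.2) (hQ.map _) g g.2 hg'
      (by rwa [Subgroup.orderOf_coe]) y ⟨y, hy, rfl⟩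
    apply Subtype.ext
    exact this.eq.symm
  obtain ⟨N, hN, hc, hq⟩ := Cfsg.Agent.Lib.Transfer.Basic.hasNormalPComplement_iff.mp
    (Cfsg.Agent.Lib.Transfer.Frobenius.hasNormalPComplement_of_hyp hF)
  refine ⟨N.map C.subtype, ?_, ?_, ?_, ?_⟩
  · rintro _ ⟨y, -, rfl⟩; exact y.2
  · intro s hs
    apply mem_nz_of_conj
    rintro _ ⟨y, hy, rfl⟩
    refine ⟨⟨s, hs⟩ * y * ⟨s, hs⟩⁻¹, hN.conj_mem y hy _, ?_⟩
    simp
  · have : Nat.card (N.map C.subtype) = Nat.card N :=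
      Nat.card_congr (Subgroup.equivMapOfInjective N _ C.subtype_injective).symm.toEquiv
    rwa [this]
  · obtain ⟨m, hm⟩ := IsPGroup.iff_card.mp hq
    refine ⟨m, ?_⟩
    have : (N.map C.subtype).subgroupOf C = N := by
      ext y
      constructor
      · intro hy
        obtain ⟨z, hz, e⟩ := Subgroup.mem_subgroupOf.mp hy
        have : z = y := Subtype.ext e
        rwa [← this]
      · intro hy
        exact Subgroup.mem_subgroupOf.mpr ⟨y, hy, rfl⟩
    rw [Subgroup.relIndex, this, Subgroup.index_eq_card, hm]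

/-- The largest subgroup of `T` normalized by `D`. -/
noncomputable def hat (T D : Subgroup G) : Subgroup G := sSup {F | F ≤ T ∧ D ≤ Nz F}

theorem hat_le (T D : Subgroup G) : hat T D ≤ T := sSup_le fun _ h => h.1

theorem le_hat {T D F : Subgroup G} (h1 : F ≤ T) (h2 : D ≤ Nz F) : F ≤ hat T D :=
  le_sSup ⟨h1, h2⟩

theorem le_nz_hat (T D : Subgroup G) : D ≤ Nz (hat T D) := by
  intro d hd
  apply mem_nz_of_conj
  have : hat T D ≤ (hat T D).comap (MulAut.conj d).toMonoidHom := by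
    apply sSup_le
    rintro F ⟨h1, h2⟩ x hx
    have h3 : d * x * d⁻¹ ∈ F := conj_mem_nz (h2 hd) hx
    have : (MulAut.conj d).toMonoidHom x = d * x * d⁻¹ := by simp [MulAut.conj_apply]
    rw [Subgroup.mem_comap, this]
    exact le_hat h1 h2 h3
  intro x hx
  have h4 := this hx
  rw [Subgroup.mem_comap] at h4
  simpa [MulAut.conj_apply] using h4

theorem hat_wc {T D : Subgroup G} {m : G} (hm : m ∈ Nz D) (h : cj m (hat T D) ≤ T) :
    m ∈ Nz (hat T D) := by
  apply mem_nz_of_conj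
  have hF : D ≤ Nz (cj m (hat T D)) := by
    intro d hd
    apply mem_nz_of_conj
    intro x hx
    rw [mem_cj] at hx ⊢
    have h1 : m⁻¹ * d * m ∈ D := inv_conj_mem_nz hm hd
    have h2 := conj_mem_nz (le_nz_hat T D h1) hx
    have e : m⁻¹ * (d * x * d⁻¹) * m = m⁻¹ * d * m * (m⁻¹ * x * m) * (m⁻¹ * d * m)⁻¹ := by group
    rwa [e]
  have h3 := le_hat h hF
  intro x hx
  exact h3 (conj_mem_cj hx)

/-- Factorization of the normalizer of `hat T D`. -/
theorem hat_factor {T D L M : Subgroup G} (hfac : ∀ g : G, ∃ l ∈ L, ∃ m ∈ M, g = l * m)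
    (hL : L ≤ Nz T) (hM : M ≤ Nz D) {g : G} (hg : g ∈ Nz (hat T D)) :
    ∃ l ∈ L ⊓ Nz (hat T D), ∃ m ∈ M ⊓ Nz (hat T D), g = l * m := by
  obtain ⟨l, hl, m, hm, rfl⟩ := hfac g
  have hmN : m ∈ Nz (hat T D) := by
    apply hat_wc (hM hm)
    rintro _ ⟨x, hx, rfl⟩
    have h1 : (l * m) * x * (l * m)⁻¹ ∈ hat T D := conj_mem_nz hg hx
    have h2 := inv_conj_mem_nz (hL hl) (hat_le T D h1)
    have e : l⁻¹ * ((l * m) * x * (l * m)⁻¹) * l = m * x * m⁻¹ := by group
    rw [e] at h2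
    simpa [MulAut.conj_apply] using h2
  have hlN : l ∈ Nz (hat T D) := by
    have := Subgroup.mul_mem _ hg (Subgroup.inv_mem _ hmN)
    simpa using this
  exact ⟨l, ⟨hl, hlN⟩, m, ⟨hm, hmN⟩, rfl⟩

/-- Normal Hall subgroups of factors of a solvable factorized subgroup permute, subgroup form. -/
theorem exists_subgroup_of_hall_in {S H K D W : Subgroup G} (hS : Group.IsSolvable S) (hHS : H ≤ S)
    (hKS : K ≤ S) (hfac : ∀ g ∈ S, ∃ h ∈ H, ∃ k ∈ K, g = h * k) (hDH : D ≤ H) (hWK : W ≤ K)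
    (hDn : H ≤ Nz D) (hWn : K ≤ Nz W) (hD : (Nat.card D).Coprime D.index)
    (hW : (Nat.card W).Coprime W.index) :
    ∃ X : Subgroup G, (X : Set G) = (D : Set G) * (W : Set G) := by
  haveI := hS
  have hDS := hDH.trans hHS
  have hWS := hWK.trans hKS
  have key : ∀ {Y : Subgroup G}, Y ≤ S → (Nat.card Y).Coprime Y.index →
      (Nat.card (Y.subgroupOf S)).Coprime (Y.subgroupOf S).index := by
    intro Y hY hc
    rw [card_subgroupOf_of_le' hY]
    refine Nat.Coprime.coprime_dvd_right ?_ hc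
    have := Subgroup.relIndex_mul_index hY
    exact ⟨_, this.symm⟩
  have hres := Cfsg.Agent.Lib.Solvable.Product.exists_subgroup_eq_mul_of_hall
    (H.subgroupOf S) (K.subgroupOf S) (D.subgroupOf S) (W.subgroupOf S)
    (by
      rintro ⟨g, hg⟩
      obtain ⟨h, hh, k, hk, e⟩ := hfac g hg
      exact ⟨⟨h, hHS hh⟩, Subgroup.mem_subgroupOf.mpr hh, ⟨k, hKS hk⟩,
        Subgroup.mem_subgroupOf.mpr hk, Subtype.ext e⟩)
    (by
      rintro h hh a ha
      exact Subgroup.mem_subgroupOf.mpr (conj_mem_nz (hDn (Subgroup.mem_subgroupOf.mp hh))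
        (Subgroup.mem_subgroupOf.mp ha)))
    (by
      rintro h hh a ha
      exact Subgroup.mem_subgroupOf.mpr (conj_mem_nz (hWn (Subgroup.mem_subgroupOf.mp hh))
        (Subgroup.mem_subgroupOf.mp ha)))
    (key hDS hD) (key hWS hW)
  refine ⟨(D.subgroupOf S ⊔ W.subgroupOf S).map S.subtype, ?_⟩
  ext x
  simp only [Set.mem_mul, SetLike.mem_coe]
  constructor
  · rintro ⟨y, hy, rfl⟩
    have hy' : y ∈ ((D.subgroupOf S ⊔ W.subgroupOf S : Subgroup S) : Set S) := hy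
    rw [hres] at hy'
    obtain ⟨d, hd, w, hw, e⟩ := Set.mem_mul.mp hy'
    refine ⟨d, Subgroup.mem_subgroupOf.mp hd, w, Subgroup.mem_subgroupOf.mp hw, ?_⟩
    rw [← e]
    simp
  · rintro ⟨d, hd, w, hw, rfl⟩
    have hy' : (⟨d, hDS hd⟩ * ⟨w, hWS hw⟩ : S) ∈
        ((D.subgroupOf S ⊔ W.subgroupOf S : Subgroup S) : Set S) := by
      rw [hres]
      exact Set.mul_mem_mul (Subgroup.mem_subgroupOf.mpr hd) (Subgroup.mem_subgroupOf.mpr hw)
    exact ⟨_, hy', rfl⟩

/-- `relIndex` in a factorized subgroup. -/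
theorem relIndex_dvd_of_factor {S H K : Subgroup G} (hH : H ≤ S) (hK : K ≤ S)
    (hfac : ∀ g ∈ S, ∃ h ∈ H, ∃ k ∈ K, g = h * k) : K.relIndex S ∣ Nat.card H := by
  have h2 := Cfsg.Agent.Lib.Basic.ProductCard.ncard_mul_mul_card_inf H K
  have h2' : ((H : Set G) * (K : Set G)) = (S : Set G) := by
    ext x
    simp only [Set.mem_mul, SetLike.mem_coe]
    constructor
    · rintro ⟨r, hr, k, hk, rfl⟩
      exact S.mul_mem (hH hr) (hK hk)
    · intro hx
      obtain ⟨h, hh, k, hk, e⟩ := hfac x hx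
      exact ⟨h, hh, k, hk, e.symm⟩
  rw [h2', show (S : Set G).ncard = Nat.card S from (Nat.card_coe_set_eq _).symm] at h2
  have h3 := card_mul_relIndex_of_le hK
  have hK0 : 0 < Nat.card K := Nat.card_pos
  refine ⟨Nat.card (H ⊓ K : Subgroup G), ?_⟩
  apply Nat.eq_of_mul_eq_mul_right hK0
  rw [← h2, ← h3]
  ring


end Cfsg.Agent.Lib.KW
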